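import Cfsg.Agent.H876.SpGen
set_option linter.all false

/-!
Maximality of the reducible members of class 1 in `Sp_{2m}(F)` (any field, any `m`):
the stabiliser of a nonzero totally singular subspace (`singular_maximal`) and the stabiliser of a
non-degenerate subspace `W ≠ 0` of dimension different from `m` and `2m` (`nondegenerate_maximal`).
-/

set_option autoImplicit false
open Cfsg
open scoped Matrix MatrixGroups

namespace Cfsg.Agent.H874.SpCOne

open Cfsg.Agent.ClassicalGeometry.SympBasic Cfsg.Agent.H876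

variable {F : Type*} [Field F] {m : ℕ}

/-- The vectors all of whose transvections lie in `M`. -/
def centers (M : Subgroup (GL (Fin m ⊕ Fin m) F)) : Set (Fin m ⊕ Fin m → F) :=
  {v | ∀ c, tGL v c ∈ M}

theorem iso {g : GL (Fin m ⊕ Fin m) F} (hg : g ∈ spGL m F) (u v : Fin m ⊕ Fin m → F) :
    sympForm m F ((g : Matrix (Fin m ⊕ Fin m) (Fin m ⊕ Fin m) F) *ᵥ u)
      ((g : Matrix (Fin m ⊕ Fin m) (Fin m ⊕ Fin m) F) *ᵥ v) = sympForm m F u v := hg u v

theorem tGL_smul (v : Fin m ⊕ Fin m → F) (a c : F) : tGL (a • v) c = tGL v (a * a * c) := by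
  apply gl_ext
  intro u
  rw [tGL_mulVec, tGL_mulVec, sympForm_smul_right, smul_smul]
  congr 2
  ring

theorem smul_mem {M : Subgroup (GL (Fin m ⊕ Fin m) F)} {v : Fin m ⊕ Fin m → F}
    (hv : v ∈ centers M) (a : F) : a • v ∈ centers M := by
  intro c
  rw [tGL_smul]
  exact hv _

theorem conj_tGL {g : GL (Fin m ⊕ Fin m) F} (hg : g ∈ spGL m F) (v : Fin m ⊕ Fin m → F) (c : F) :
    g * tGL v c * g⁻¹ = tGL ((g : Matrix _ _ F) *ᵥ v) c := by
  apply gl_ext
  intro u
  rw [mul_mulVec, mul_mulVec, tGL_mulVec, tGL_mulVec, Matrix.mulVec_add, Matrix.mulVec_smul,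
    mulVec_inv_cancel]
  congr 2
  have h := iso hg (((g⁻¹ : GL (Fin m ⊕ Fin m) F) : Matrix _ _ F) *ᵥ u) v
  rw [mulVec_inv_cancel] at h
  rw [h]

theorem mulVec_mem {M : Subgroup (GL (Fin m ⊕ Fin m) F)} (hM : M ≤ spGL m F)
    {g : GL (Fin m ⊕ Fin m) F} (hg : g ∈ M) {v : Fin m ⊕ Fin m → F} (hv : v ∈ centers M) :
    (g : Matrix _ _ F) *ᵥ v ∈ centers M := by
  intro c
  rw [← conj_tGL (hM hg)]
  exact M.mul_mem (M.mul_mem hg (hv c)) (M.inv_mem hg)

theorem add_mem {M : Subgroup (GL (Fin m ⊕ Fin m) F)} (hM : M ≤ spGL m F)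
    {u v : Fin m ⊕ Fin m → F} (hu : u ∈ centers M) (hv : v ∈ centers M)
    (huv : sympForm m F u v ≠ 0) : u + v ∈ centers M := by
  have h := mulVec_mem hM (hv (sympForm m F u v)⁻¹) hu
  rwa [tGL_mulVec, inv_mul_cancel₀ huv, one_smul] at h

theorem add_smul_mem {M : Subgroup (GL (Fin m ⊕ Fin m) F)} (hM : M ≤ spGL m F)
    {u v : Fin m ⊕ Fin m → F} (hu : u ∈ centers M) (hv : v ∈ centers M)
    (huv : sympForm m F u v ≠ 0) (c : F) : u + c • v ∈ centers M := by
  by_cases hc : c = 0
  · rwa [hc, zero_smul, add_zero]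
  · refine add_mem hM hu (smul_mem hv c) ?_
    rw [sympForm_smul_right]
    exact mul_ne_zero hc huv

theorem eq_top_of_centers {M : Subgroup (GL (Fin m ⊕ Fin m) F)} (hM : M ≤ spGL m F)
    (h : ∀ v, v ∈ centers M) : M = spGL m F :=
  le_antisymm hM (spGL_le M fun v c => h v c)

theorem mem_stab_iff (W : Submodule F (Fin m ⊕ Fin m → F)) (g : GL (Fin m ⊕ Fin m) F) :
    g ∈ Cfsg.Geo.subspaceStabilizer W ↔ ∀ v, v ∈ W ↔ (g : Matrix _ _ F) *ᵥ v ∈ W := Iff.rfl

/-- finite dimension: mapping into itself is enough. -/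
theorem mem_stab_of_le {W : Submodule F (Fin m ⊕ Fin m → F)} {g : GL (Fin m ⊕ Fin m) F}
    (h : ∀ v ∈ W, (g : Matrix _ _ F) *ᵥ v ∈ W) : g ∈ Cfsg.Geo.subspaceStabilizer W := by
  rw [mem_stab_iff]
  let L : (Fin m ⊕ Fin m → F) ≃ₗ[F] (Fin m ⊕ Fin m → F) :=
    { Matrix.toLin' (g : Matrix (Fin m ⊕ Fin m) (Fin m ⊕ Fin m) F) with
      invFun := fun v =>
        ((g⁻¹ : GL (Fin m ⊕ Fin m) F) : Matrix (Fin m ⊕ Fin m) (Fin m ⊕ Fin m) F) *ᵥ v
      left_inv := fun v => inv_mulVec_cancel g v
      right_inv := fun v => mulVec_inv_cancel g v }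
  have hL : ∀ v, L v = (g : Matrix _ _ F) *ᵥ v := fun v => rfl
  have hmap : W.map (L : (Fin m ⊕ Fin m → F) →ₗ[F] (Fin m ⊕ Fin m → F)) = W := by
    apply Submodule.eq_of_le_of_finrank_eq
    · rintro _ ⟨v, hv, rfl⟩
      exact h v hv
    · exact L.finrank_map_eq W
  intro v
  refine ⟨h v, fun hv => ?_⟩
  rw [← hmap] at hv
  obtain ⟨w, hw, hwv⟩ := hv
  have : w = v := L.injective (by rw [hL v]; exact hwv)
  rwa [← this]

/-- Two functionals `f w ·` given by `u`, `v` not killing `W` are nonzero at a common vector. -/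
theorem exists_common {W : Submodule F (Fin m ⊕ Fin m → F)} {u v : Fin m ⊕ Fin m → F}
    (hu : ∃ w ∈ W, sympForm m F u w ≠ 0) (hv : ∃ w ∈ W, sympForm m F v w ≠ 0) :
    ∃ w ∈ W, sympForm m F u w ≠ 0 ∧ sympForm m F v w ≠ 0 := by
  obtain ⟨x, hx, hux⟩ := hu
  obtain ⟨y, hy, hvy⟩ := hv
  by_cases h1 : sympForm m F v x = 0
  · by_cases h2 : sympForm m F u y = 0
    · refine ⟨x + y, W.add_mem hx hy, ?_, ?_⟩
      · rw [sympForm_add_right, h2, add_zero]; exact hux
      · rw [sympForm_add_right, h1, zero_add]; exact hvy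
    · exact ⟨y, hy, h2, hvy⟩
  · exact ⟨x, hx, hux, h1⟩

/-! ### the non-degenerate case -/

/-- one factor: moving inside `W` -/
theorem move {M : Subgroup (GL (Fin m ⊕ Fin m) F)} (hM : M ≤ spGL m F)
    {W : Submodule F (Fin m ⊕ Fin m → F)} (hW : Cfsg.Geo.IsNondegenerateOn (sympForm m F) W)
    (hWc : ∀ w ∈ W, w ∈ centers M) {a a' b : Fin m ⊕ Fin m → F} (ha : a ∈ W) (ha0 : a ≠ 0)
    (ha' : a' ∈ W) (ha'0 : a' ≠ 0) (hb : ∀ w ∈ W, sympForm m F b w = 0)
    (hab : a + b ∈ centers M) : a' + b ∈ centers M := by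
  have key : ∀ x ∈ W, ∀ y ∈ W, x + b ∈ centers M → sympForm m F x y ≠ 0 → y + b ∈ centers M := by
    intro x hx y hy hxb hxy
    have h1 : sympForm m F (x + b) (y - x) ≠ 0 := by
      rw [sympForm_add_left, hb _ (W.sub_mem hy hx), add_zero, sympForm_sub_right, sympForm_self,
        sub_zero]
      exact hxy
    have h2 := add_mem hM hxb (hWc _ (W.sub_mem hy hx)) h1
    convert h2 using 1
    abel
  obtain ⟨z, hz, h1, h2⟩ := exists_common (hW a ha ha0).2 (hW a' ha' ha'0).2
  refine key z hz a' ha' (key a ha z hz hab h1) ?_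
  rw [sympForm_swap]
  exact neg_ne_zero.2 h2

/-- the orthogonal complement, as a submodule. -/
def perp (W : Submodule F (Fin m ⊕ Fin m → F)) : Submodule F (Fin m ⊕ Fin m → F) where
  carrier := {v | ∀ w ∈ W, sympForm m F v w = 0}
  add_mem' {a b} ha hb := by
    intro w hw
    rw [sympForm_add_left, ha w hw, hb w hw, add_zero]
  zero_mem' := by
    intro w hw
    rw [sympForm_zero_left]
  smul_mem' c a ha := by
    intro w hw
    rw [sympForm_smul_left, ha w hw, mul_zero]

theorem mem_perp {W : Submodule F (Fin m ⊕ Fin m → F)} {v : Fin m ⊕ Fin m → F} :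
    v ∈ perp W ↔ ∀ w ∈ W, sympForm m F v w = 0 := Iff.rfl

theorem perp_eq (W : Submodule F (Fin m ⊕ Fin m → F)) :
    perp W = LinearMap.BilinForm.orthogonal (sympBilin m F) W := by
  ext v
  rw [mem_perp, LinearMap.BilinForm.mem_orthogonal_iff]
  refine forall₂_congr fun w _ => ?_
  rw [sympBilin_apply, sympForm_swap]
  exact neg_eq_zero

theorem sympBilin_refl : LinearMap.BilinForm.IsRefl (sympBilin m F) :=
  (sympBilin_isAlt (m := m) (F := F)).isRefl

theorem perp_perp (W : Submodule F (Fin m ⊕ Fin m → F)) : perp (perp W) = W := by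
  rw [perp_eq, perp_eq]
  exact LinearMap.BilinForm.orthogonal_orthogonal sympBilin_nondegenerate sympBilin_refl W

theorem finrank_perp (W : Submodule F (Fin m ⊕ Fin m → F)) :
    Module.finrank F (perp W) + Module.finrank F W = 2 * m := by
  rw [perp_eq, LinearMap.BilinForm.finrank_orthogonal sympBilin_nondegenerate]
  have h : Module.finrank F W ≤ Module.finrank F (Fin m ⊕ Fin m → F) := Submodule.finrank_le W
  have h2 : Module.finrank F (Fin m ⊕ Fin m → F) = 2 * m := by simp; ring
  omega

theorem perp_map {W W' : Submodule F (Fin m ⊕ Fin m → F)} {g : GL (Fin m ⊕ Fin m) F}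
    (hg : g ∈ spGL m F)
    (hinv : ∀ v ∈ W', ((g⁻¹ : GL (Fin m ⊕ Fin m) F) : Matrix _ _ F) *ᵥ v ∈ W) :
    ∀ v ∈ perp W, (g : Matrix _ _ F) *ᵥ v ∈ perp W' := by
  intro v hv w hw
  have h1 := iso hg v (((g⁻¹ : GL (Fin m ⊕ Fin m) F) : Matrix _ _ F) *ᵥ w)
  rw [mulVec_inv_cancel] at h1
  rw [h1]
  exact hv _ (hinv w hw)

/-- An isometry stabilising `perp W` stabilises `W`. -/
theorem stab_of_perp {W : Submodule F (Fin m ⊕ Fin m → F)} {g : GL (Fin m ⊕ Fin m) F}
    (hg : g ∈ spGL m F) (h : g ∈ Cfsg.Geo.subspaceStabilizer (perp W)) :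
    g ∈ Cfsg.Geo.subspaceStabilizer W := by
  have hinv := (Cfsg.Geo.subspaceStabilizer (perp W)).inv_mem h
  have h1 := perp_map hg (fun v hv => (((mem_stab_iff _ _).1 hinv v).1 hv))
  rw [perp_perp] at h1
  exact mem_stab_of_le h1

/-- The stabiliser of `W` contains the transvections with centre orthogonal to `W`. -/
theorem tGL_mem_stab_of_perp {W : Submodule F (Fin m ⊕ Fin m → F)} {v : Fin m ⊕ Fin m → F}
    (hv : v ∈ perp W) (c : F) :
    tGL v c ∈ Cfsg.Geo.subspaceStabilizer W := by
  apply mem_stab_of_le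
  intro w hw
  rw [tGL_mulVec, sympForm_swap, hv w hw, neg_zero, mul_zero, zero_smul, add_zero]
  exact hw

/-- The stabiliser of `W` contains the transvections with centre in `W`. -/
theorem tGL_mem_stab_of_mem {W : Submodule F (Fin m ⊕ Fin m → F)} {v : Fin m ⊕ Fin m → F}
    (hv : v ∈ W) (c : F) :
    tGL v c ∈ Cfsg.Geo.subspaceStabilizer W := by
  apply mem_stab_of_le
  intro w hw
  rw [tGL_mulVec]
  exact W.add_mem hw (W.smul_mem _ hv)

/-- A vector outside `W` and outside `perp W` moves `W`. -/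
theorem not_mem_stab {W : Submodule F (Fin m ⊕ Fin m → F)} {v : Fin m ⊕ Fin m → F}
    (hv : v ∉ W) (hv' : v ∉ perp W) : tGL v 1 ∉ Cfsg.Geo.subspaceStabilizer W := by
  intro h
  rw [mem_perp] at hv'
  push Not at hv'
  obtain ⟨w, hw, hvw⟩ := hv'
  have h1 := ((mem_stab_iff _ _).1 h w).1 hw
  rw [tGL_mulVec] at h1
  have h2 := (W.add_mem_iff_right hw).1 h1
  rw [one_mul] at h2
  have h3 : sympForm m F w v ≠ 0 := by
    rw [sympForm_swap]
    exact neg_ne_zero.2 hvw
  have h4 := W.smul_mem (sympForm m F w v)⁻¹ h2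
  rw [smul_smul, inv_mul_cancel₀ h3, one_smul] at h4
  exact hv h4

/-! ### the totally singular case -/

/-- the short root element `x ↦ x + f(z,x) w + f(w,x) z`, `f(w,z) = 0`, as linear map -/
def srLin (w z : Fin m ⊕ Fin m → F) : (Fin m ⊕ Fin m → F) →ₗ[F] (Fin m ⊕ Fin m → F) where
  toFun x := x + sympForm m F z x • w + sympForm m F w x • z
  map_add' x y := by
    simp only [sympForm_add_right, add_smul]
    abel
  map_smul' c x := by
    simp only [sympForm_smul_right, RingHom.id_apply, smul_add, smul_smul]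

theorem srLin_apply (w z x : Fin m ⊕ Fin m → F) :
    srLin w z x = x + sympForm m F z x • w + sympForm m F w x • z := rfl

theorem srLin_iso {w z : Fin m ⊕ Fin m → F} (h : sympForm m F w z = 0) (x y : Fin m ⊕ Fin m → F) :
    sympForm m F (srLin w z x) (srLin w z y) = sympForm m F x y := by
  have h' : sympForm m F z w = 0 := by rw [sympForm_swap, h, neg_zero]
  simp only [srLin_apply, sympForm_add_left, sympForm_add_right, sympForm_smul_left,
    sympForm_smul_right, sympForm_self, h, h']
  rw [sympForm_swap x w, sympForm_swap x z]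
  ring

theorem srLin_comp {w z : Fin m ⊕ Fin m → F} (h : sympForm m F w z = 0) (x : Fin m ⊕ Fin m → F) :
    srLin w (-z) (srLin w z x) = x := by
  have h' : sympForm m F z w = 0 := by rw [sympForm_swap, h, neg_zero]
  simp only [srLin_apply, sympForm_add_right, sympForm_smul_right, sympForm_self, h, h',
    sympForm_neg_left, mul_zero, add_zero, smul_neg, neg_zero, neg_smul]
  abel

/-- the short root element in `GL`. -/
noncomputable def sr (w z : Fin m ⊕ Fin m → F) (h : sympForm m F w z = 0) : GL (Fin m ⊕ Fin m) F :=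
  glOf
    { srLin w z with
      invFun := srLin w (-z)
      left_inv := fun x => srLin_comp h x
      right_inv := fun x => by
        have h0 : sympForm m F w (-z) = 0 := by rw [sympForm_neg_right, h, neg_zero]
        have := srLin_comp h0 x
        rwa [neg_neg] at this }

theorem sr_mulVec {w z : Fin m ⊕ Fin m → F} (h : sympForm m F w z = 0) (x : Fin m ⊕ Fin m → F) :
    (sr w z h : Matrix _ _ F) *ᵥ x = x + sympForm m F z x • w + sympForm m F w x • z := by
  rw [sr, glOf_mulVec]
  rfl

theorem sr_mem {w z : Fin m ⊕ Fin m → F} (h : sympForm m F w z = 0) : sr w z h ∈ spGL m F := by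
  intro x y
  change sympForm m F ((sr w z h : Matrix _ _ F) *ᵥ x) ((sr w z h : Matrix _ _ F) *ᵥ y) = _
  rw [sr_mulVec, sr_mulVec]
  exact srLin_iso h x y

/-- The stabiliser of a nonzero totally singular subspace is maximal. -/
theorem singular_maximal (W : Submodule F (Fin m ⊕ Fin m → F)) (hW0 : W ≠ ⊥)
    (hW : Cfsg.Geo.IsTotallySingularFor (sympForm m F) W) :
    Cfsg.Geo.IsMaximalIn (spGL m F) (Cfsg.Geo.subspaceStabilizer W ⊓ spGL m F) := by
  have hWp : W ≤ perp W := fun v hv w hw => hW v hv w hw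
  obtain ⟨w0, hw0, hw00⟩ := (Submodule.ne_bot_iff _).1 hW0
  obtain ⟨v0, hv0⟩ : ∃ v, sympForm m F v w0 ≠ 0 := by
    by_contra hc
    push Not at hc
    exact hw00 (eq_zero_of_forall_sympForm_left hc)
  have hv0p : v0 ∉ perp W := fun h => hv0 (h w0 hw0)
  refine ⟨lt_of_le_of_ne inf_le_right ?_, ?_⟩
  · intro heq
    have h1 : tGL v0 1 ∈ Cfsg.Geo.subspaceStabilizer W ⊓ spGL m F := by
      rw [heq]; exact tGL_mem v0 1
    exact not_mem_stab (fun h => hv0p (hWp h)) hv0p h1.1
  · intro M hHM hM
    by_cases hle : M ≤ Cfsg.Geo.subspaceStabilizer W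
    · left
      exact le_antisymm (le_inf hle hM) hHM
    · right
      obtain ⟨g, hgM, hg⟩ := SetLike.not_le_iff_exists.1 hle
      have hWc : ∀ w ∈ perp W, w ∈ centers M := fun w hw c =>
        hHM ⟨tGL_mem_stab_of_perp hw c, tGL_mem w c⟩
      -- a centre outside `perp W`
      obtain ⟨v, hv, hvc⟩ : ∃ v, v ∉ perp W ∧ v ∈ centers M := by
        by_contra hc
        push Not at hc
        apply hg
        apply stab_of_perp (hM hgM)
        apply mem_stab_of_le
        intro v hv
        by_contra hn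
        exact hc _ hn (mulVec_mem hM hgM (hWc v hv))
      have hne : ∀ {v : Fin m ⊕ Fin m → F}, v ∉ perp W → ∃ w ∈ W, sympForm m F v w ≠ 0 := by
        intro v hv
        rw [mem_perp] at hv
        push Not at hv
        exact hv
      -- cosets of `perp W`
      have hcoset : ∀ v ∉ perp W, v ∈ centers M → ∀ y ∈ perp W, v + y ∈ centers M := by
        intro v hv hvc y hy
        by_cases hvy : sympForm m F v y = 0
        · obtain ⟨w, hw, hvw⟩ := hne hv
          have h1 : v + (y + w) ∈ centers M := by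
            refine add_mem hM hvc (hWc _ ((perp W).add_mem hy (hWp hw))) ?_
            rw [sympForm_add_right, hvy, zero_add]
            exact hvw
          have h2 : (v + (y + w)) + (-w) ∈ centers M := by
            refine add_mem hM h1 (hWc _ ((perp W).neg_mem (hWp hw))) ?_
            rw [sympForm_add_left, sympForm_add_left, sympForm_neg_right, sympForm_neg_right,
              sympForm_neg_right, hy w hw, sympForm_self, neg_zero, add_zero, add_zero]
            exact neg_ne_zero.2 hvw
          convert h2 using 1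
          abel
        · exact add_mem hM hvc (hWc y hy) hvy
      -- moving by short root elements
      have hmove : ∀ v ∉ perp W, v ∈ centers M → ∀ x ∉ perp W,
          (∃ w ∈ W, sympForm m F v w ≠ 0 ∧ sympForm m F v w = sympForm m F x w) →
            x ∈ centers M := by
        rintro v hv hvc x hx ⟨w, hw, hvw, hvx⟩
        set a : F := (sympForm m F w v)⁻¹ with ha
        have hwv : sympForm m F w v ≠ 0 := by
          rw [sympForm_swap]; exact neg_ne_zero.2 hvw
        have hz : sympForm m F w (a • (x - v)) = 0 := by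
          rw [sympForm_smul_right, sympForm_sub_right, sympForm_swap w x, ← hvx, sympForm_swap w v,
            sub_self, mul_zero]
        have hmem : sr w (a • (x - v)) hz ∈ M := by
          refine hHM ⟨mem_stab_of_le ?_, sr_mem hz⟩
          intro u hu
          rw [sr_mulVec, hW w hw u hu, zero_smul, add_zero]
          exact W.add_mem hu (W.smul_mem _ hw)
        have h1 := mulVec_mem hM hmem hvc
        rw [sr_mulVec, smul_smul, ha, mul_inv_cancel₀ hwv, one_smul] at h1
        set b := sympForm m F ((sympForm m F w v)⁻¹ • (x - v)) v with hb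
        have h2 : v + b • w + (x - v) = x + b • w := by abel
        rw [h2] at h1
        have h3 := hcoset (x + b • w) (fun h => hx (by
          have := (perp W).sub_mem h ((perp W).smul_mem b (hWp hw))
          rwa [add_sub_cancel_right] at this)) h1 (-(b • w))
            ((perp W).neg_mem ((perp W).smul_mem b (hWp hw)))
        rwa [add_neg_cancel_right] at h3
      apply eq_top_of_centers hM
      intro x
      by_cases hx : x ∈ perp W
      · exact hWc x hx
      · obtain ⟨w, hw, hvw, hxw⟩ := exists_common (hne hv) (hne hx)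
        -- rescale `v`
        set b : F := sympForm m F x w * (sympForm m F v w)⁻¹ with hb
        have hb0 : b ≠ 0 := mul_ne_zero hxw (inv_ne_zero hvw)
        have h1 : sympForm m F (b • v) w = sympForm m F x w := by
          rw [sympForm_smul_left, hb, mul_assoc, inv_mul_cancel₀ hvw, mul_one]
        refine hmove (b • v) (fun h => hv ?_) (smul_mem hvc b) x hx ⟨w, hw, ?_, h1⟩
        · have := (perp W).smul_mem b⁻¹ h
          rwa [smul_smul, inv_mul_cancel₀ hb0, one_smul] at this
        · rw [h1]; exact hxw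

/-- The stabiliser of a non-degenerate subspace `W` with `dim W ≠ 0, m, 2m` is maximal. -/
theorem nondegenerate_maximal (W : Submodule F (Fin m ⊕ Fin m → F)) (hW0 : W ≠ ⊥) (hW1 : W ≠ ⊤)
    (hW : Cfsg.Geo.IsNondegenerateOn (sympForm m F) W) (hdim : Module.finrank F W ≠ m) :
    Cfsg.Geo.IsMaximalIn (spGL m F) (Cfsg.Geo.subspaceStabilizer W ⊓ spGL m F) := by
  have hfr := finrank_perp W
  -- `V = W ⊕ perp W`
  have hinf : W ⊓ perp W = ⊥ := by
    rw [Submodule.eq_bot_iff]
    rintro v ⟨hv, hv'⟩
    by_contra h0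
    obtain ⟨-, x, hx, hvx⟩ := hW v hv h0
    exact hvx (hv' x hx)
  have hsup : W ⊔ perp W = ⊤ := by
    apply Submodule.eq_top_of_finrank_eq
    have h1 := Submodule.finrank_sup_add_finrank_inf_eq W (perp W)
    rw [hinf, finrank_bot] at h1
    have h2 : Module.finrank F (Fin m ⊕ Fin m → F) = 2 * m := by simp; ring
    omega
  have hdec : ∀ v, ∃ a ∈ W, ∃ b ∈ perp W, a + b = v := fun v =>
    Submodule.mem_sup.1 (by rw [hsup]; exact Submodule.mem_top)
  have hPnd : Cfsg.Geo.IsNondegenerateOn (sympForm m F) (perp W) := by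
    intro b hb hb0
    obtain ⟨x, hx⟩ : ∃ x, sympForm m F x b ≠ 0 := by
      by_contra hc
      push Not at hc
      exact hb0 (eq_zero_of_forall_sympForm_left hc)
    obtain ⟨y, hy, z, hz, rfl⟩ := hdec x
    have h1 : sympForm m F y b = 0 := by rw [sympForm_swap, hb y hy, neg_zero]
    rw [sympForm_add_left, h1, zero_add] at hx
    exact ⟨⟨z, hz, hx⟩, ⟨z, hz, by rw [sympForm_swap]; exact neg_ne_zero.2 hx⟩⟩
  obtain ⟨a0, ha0, ha00⟩ := (Submodule.ne_bot_iff _).1 hW0
  have hP0 : perp W ≠ ⊥ := by
    intro h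
    rw [h, sup_bot_eq] at hsup
    exact hW1 hsup
  obtain ⟨b0, hb0, hb00⟩ := (Submodule.ne_bot_iff _).1 hP0
  have hdisj : ∀ v, v ∈ W → v ∈ perp W → v = 0 := fun v h1 h2 => by
    have : v ∈ W ⊓ perp W := ⟨h1, h2⟩
    rwa [hinf, Submodule.mem_bot] at this
  refine ⟨lt_of_le_of_ne inf_le_right ?_, ?_⟩
  · intro heq
    have h1 : tGL (a0 + b0) 1 ∈ Cfsg.Geo.subspaceStabilizer W ⊓ spGL m F := by
      rw [heq]; exact tGL_mem _ 1
    refine not_mem_stab ?_ ?_ h1.1
    · intro h
      exact hb00 (hdisj b0 ((W.add_mem_iff_right ha0).1 h) hb0)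
    · intro h
      exact ha00 (hdisj a0 ha0 (((perp W).add_mem_iff_left hb0).1 h))
  · intro M hHM hM
    by_cases hle : M ≤ Cfsg.Geo.subspaceStabilizer W
    · left
      exact le_antisymm (le_inf hle hM) hHM
    · right
      obtain ⟨g, hgM, hg⟩ := SetLike.not_le_iff_exists.1 hle
      have hWc : ∀ w ∈ W, w ∈ centers M := fun w hw c =>
        hHM ⟨tGL_mem_stab_of_mem hw c, tGL_mem w c⟩
      have hPc : ∀ w ∈ perp W, w ∈ centers M := fun w hw c =>
        hHM ⟨tGL_mem_stab_of_perp hw c, tGL_mem w c⟩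
      obtain ⟨v, hv, hv', hvc⟩ : ∃ v, v ∉ W ∧ v ∉ perp W ∧ v ∈ centers M := by
        by_contra hc
        push Not at hc
        apply hg
        -- `g` maps `W ∪ perp W` into itself
        have hunion : ∀ v, v ∈ W ∨ v ∈ perp W →
            (g : Matrix _ _ F) *ᵥ v ∈ W ∨ (g : Matrix _ _ F) *ᵥ v ∈ perp W := by
          intro v hv
          by_contra hn
          push Not at hn
          refine hc _ hn.1 hn.2 (mulVec_mem hM hgM ?_)
          rcases hv with hv | hv
          · exact hWc v hv
          · exact hPc v hv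
        -- a subspace inside the union lies in one part
        have hone : ∀ U : Submodule F (Fin m ⊕ Fin m → F),
            (∀ v ∈ U, (g : Matrix _ _ F) *ᵥ v ∈ W ∨ (g : Matrix _ _ F) *ᵥ v ∈ perp W) →
            (∀ v ∈ U, (g : Matrix _ _ F) *ᵥ v ∈ W) ∨
              (∀ v ∈ U, (g : Matrix _ _ F) *ᵥ v ∈ perp W) := by
          intro U hU
          by_contra hn
          push Not at hn
          obtain ⟨⟨x, hx, hxW⟩, y, hy, hyP⟩ := hn
          have hx' := (hU x hx).resolve_left hxW
          have hy' := (hU y hy).resolve_right hyP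
          rcases hU (x + y) (U.add_mem hx hy) with h | h
          · rw [Matrix.mulVec_add] at h
            exact hxW ((W.add_mem_iff_left hy').1 h)
          · rw [Matrix.mulVec_add] at h
            exact hyP (((perp W).add_mem_iff_right hx').1 h)
        have hfin : ∀ U U' : Submodule F (Fin m ⊕ Fin m → F),
            (∀ v ∈ U, (g : Matrix _ _ F) *ᵥ v ∈ U') →
              Module.finrank F U ≤ Module.finrank F U' := by
          intro U U' h
          have hinj : Function.Injective
              (Matrix.toLin' (g : Matrix (Fin m ⊕ Fin m) (Fin m ⊕ Fin m) F)) := by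
            intro x y hxy
            have hxy' : (g : Matrix (Fin m ⊕ Fin m) (Fin m ⊕ Fin m) F) *ᵥ x = 
              (g : Matrix (Fin m ⊕ Fin m) (Fin m ⊕ Fin m) F) *ᵥ y := hxy
            rw [← inv_mulVec_cancel g x, hxy', inv_mulVec_cancel]
          rw [LinearEquiv.finrank_eq (Submodule.equivMapOfInjective _ hinj U)]
          apply Submodule.finrank_mono
          rintro _ ⟨v, hv, rfl⟩
          exact h v hv
        rcases lt_or_gt_of_ne hdim with hlt | hgt
        · -- `perp W` is the larger one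
          rcases hone (perp W) (fun v hv => hunion v (Or.inr hv)) with h | h
          · have := hfin _ _ h
            omega
          · exact stab_of_perp (hM hgM) (mem_stab_of_le h)
        · rcases hone W (fun v hv => hunion v (Or.inl hv)) with h | h
          · exact mem_stab_of_le h
          · have := hfin _ _ h
            omega
      apply eq_top_of_centers hM
      intro x
      obtain ⟨a, ha, b, hb, rfl⟩ := hdec v
      obtain ⟨a', ha', b', hb', rfl⟩ := hdec x
      have hane : a ≠ 0 := by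
        rintro rfl
        exact hv' (by rwa [zero_add])
      have hbne : b ≠ 0 := by
        rintro rfl
        exact hv (by rwa [add_zero])
      by_cases ha'0 : a' = 0
      · rw [ha'0, zero_add]
        exact hPc b' hb'
      by_cases hb'0 : b' = 0
      · rw [hb'0, add_zero]
        exact hWc a' ha'
      have h1 := move hM hW hWc ha hane ha' ha'0 hb hvc
      have h2 : b + a' ∈ centers M := by rwa [add_comm]
      have h3 := move hM hPnd hPc hb hbne hb' hb'0
        (fun w hw => by rw [sympForm_swap, hw a' ha', neg_zero]) h2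
      rwa [add_comm]

end Cfsg.Agent.H874.SpCOne
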