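import Cfsg.Agent.H874.SlotOp
import Cfsg.Agent.H874.Recog
import Cfsg.Agent.H875.SpMcL
set_option linter.all false

-- part: H874/SlotZ
section
/-!
# The involution of `⟨d, e⟩`

`d = tv w l`, `e ∈ DM M`, `z` an involution of `⟨d, e⟩`: `z` commutes with `d` and `e`, and, if `dim W ≥ 4`, it is
`-1` on `⟨w, u⟩ ⊗ W'` and `1` on `⟨w, u⟩^⊥ ⊗ W'` for some `u`.
-/

set_option autoImplicit false
set_option linter.unusedSimpArgs false
set_option linter.unusedVariables false

namespace Cfsg.Agent.H874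

open Subgroup

section Ring

variable {A : Type*} [Ring A]

/-- The shape of the elements of `⟨1 + δ, 1 + ε⟩`. -/
theorem mem_shape {δ ε : A} (hδ : δ * δ = 0) (hε : ε * ε = 0) {d e : Aˣ} (hd : (d : A) = 1 + δ)
    (hdi : ((d⁻¹ : Aˣ) : A) = 1 - δ) (he : (e : A) = 1 + ε) (hei : ((e⁻¹ : Aˣ) : A) = 1 - ε) {g : Aˣ}
    (hg : g ∈ closure ({d, e} : Set Aˣ)) :
    ∃ α β γ κ : A, (α * δ = δ * α ∧ α * ε = ε * α) ∧ (β * δ = δ * β ∧ β * ε = ε * β) ∧
      (γ * δ = δ * γ ∧ γ * ε = ε * γ) ∧ (κ * δ = δ * κ ∧ κ * ε = ε * κ) ∧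
      (g : A) = α + β * δ + γ * ε + κ * (δ * ε) ∧ ((g⁻¹ : Aˣ) : A) = α - β * δ - γ * ε + κ * (ε * δ) := by
  have hδ' : ∀ x, δ * (δ * x) = 0 := fun x => by rw [← mul_assoc, hδ, zero_mul]
  have hε' : ∀ x, ε * (ε * x) = 0 := fun x => by rw [← mul_assoc, hε, zero_mul]
  obtain ⟨T, hT⟩ : ∃ T, T = δ * ε + ε * δ := ⟨_, rfl⟩
  have hTδ : T * δ = δ * T := by
    simp only [hT, mul_add, add_mul, mul_assoc, hδ, hδ', mul_zero, zero_add, add_zero]
  have hTε : T * ε = ε * T := by
    simp only [hT, mul_add, add_mul, mul_assoc, hε, hε', mul_zero, zero_add, add_zero]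
  -- the step for `1 + a δ`, `a = ± 1`
  have stepδ : ∀ (a : A) (x x' : A), a * δ = δ * a → a * ε = ε * a → (∀ y, a * y = y * a) →
      (∃ α β γ κ : A, (α * δ = δ * α ∧ α * ε = ε * α) ∧ (β * δ = δ * β ∧ β * ε = ε * β) ∧
      (γ * δ = δ * γ ∧ γ * ε = ε * γ) ∧ (κ * δ = δ * κ ∧ κ * ε = ε * κ) ∧
      x = α + β * δ + γ * ε + κ * (δ * ε) ∧ x' = α - β * δ - γ * ε + κ * (ε * δ)) →
      (∃ α β γ κ : A, (α * δ = δ * α ∧ α * ε = ε * α) ∧ (β * δ = δ * β ∧ β * ε = ε * β) ∧
      (γ * δ = δ * γ ∧ γ * ε = ε * γ) ∧ (κ * δ = δ * κ ∧ κ * ε = ε * κ) ∧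
      (1 + a * δ) * x = α + β * δ + γ * ε + κ * (δ * ε) ∧
      x' * (1 - a * δ) = α - β * δ - γ * ε + κ * (ε * δ)) := by
    rintro a x x' ha1 ha2 ha3 ⟨α, β, γ, κ, ⟨a1, a2⟩, ⟨b1, b2⟩, ⟨c1, c2⟩, ⟨d1, d2⟩, rfl, rfl⟩
    refine ⟨α, β + a * α, γ, κ + a * γ, ⟨a1, a2⟩, ⟨?_, ?_⟩, ⟨c1, c2⟩, ⟨?_, ?_⟩, ?_, ?_⟩
    · rw [add_mul, mul_add, b1, mul_assoc, a1, ← mul_assoc, ha1, mul_assoc]
    · rw [add_mul, mul_add, b2, mul_assoc, a2, ← mul_assoc, ha2, mul_assoc]
    · rw [add_mul, mul_add, d1, mul_assoc, c1, ← mul_assoc, ha1, mul_assoc]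
    · rw [add_mul, mul_add, d2, mul_assoc, c2, ← mul_assoc, ha2, mul_assoc]
    · have e1 : δ * α = α * δ := a1.symm
      have e2 : δ * (β * δ) = 0 := by rw [← mul_assoc, ← b1, mul_assoc, hδ, mul_zero]
      have e3 : δ * (γ * ε) = γ * (δ * ε) := by rw [← mul_assoc, ← c1, mul_assoc]
      have e4 : δ * (κ * (δ * ε)) = 0 := by rw [← mul_assoc, ← d1, mul_assoc, hδ', mul_zero]
      have e5 : δ * (α + β * δ + γ * ε + κ * (δ * ε)) = α * δ + γ * (δ * ε) := by
        simp only [mul_add, e1, e2, e3, e4, add_zero]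
      rw [add_mul, one_mul, mul_assoc, e5]
      simp only [mul_add, add_mul, mul_zero, add_zero, mul_assoc]
      abel
    · have e1 : ∀ y, y * (a * δ) = a * (y * δ) := by
        intro y
        rw [← mul_assoc, ← ha3, mul_assoc]
      have e2 : β * δ * (a * δ) = 0 := by rw [e1, mul_assoc, hδ, mul_zero, mul_zero]
      have e3 : κ * (ε * δ) * (a * δ) = 0 := by rw [e1, mul_assoc, mul_assoc, hδ, mul_zero, mul_zero, mul_zero]
      rw [mul_sub, mul_one, add_mul, sub_mul, sub_mul, e2, e3, e1 α, e1 (γ * ε)]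
      simp only [mul_add, add_mul, mul_zero, add_zero, sub_zero, mul_assoc]
      abel
  have stepε : ∀ (a : A) (x x' : A), a * δ = δ * a → a * ε = ε * a → (∀ y, a * y = y * a) →
      (∃ α β γ κ : A, (α * δ = δ * α ∧ α * ε = ε * α) ∧ (β * δ = δ * β ∧ β * ε = ε * β) ∧
      (γ * δ = δ * γ ∧ γ * ε = ε * γ) ∧ (κ * δ = δ * κ ∧ κ * ε = ε * κ) ∧
      x = α + β * δ + γ * ε + κ * (δ * ε) ∧ x' = α - β * δ - γ * ε + κ * (ε * δ)) →
      (∃ α β γ κ : A, (α * δ = δ * α ∧ α * ε = ε * α) ∧ (β * δ = δ * β ∧ β * ε = ε * β) ∧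
      (γ * δ = δ * γ ∧ γ * ε = ε * γ) ∧ (κ * δ = δ * κ ∧ κ * ε = ε * κ) ∧
      (1 + a * ε) * x = α + β * δ + γ * ε + κ * (δ * ε) ∧
      x' * (1 - a * ε) = α - β * δ - γ * ε + κ * (ε * δ)) := by
    rintro a x x' ha1 ha2 ha3 ⟨α, β, γ, κ, ⟨a1, a2⟩, ⟨b1, b2⟩, ⟨c1, c2⟩, ⟨d1, d2⟩, rfl, rfl⟩
    have hmul : ∀ y y' t : A, y * t = t * y → y' * t = t * y' → y * y' * t = t * (y * y') := by
      intro y y' t h1 h2
      rw [mul_assoc, h2, ← mul_assoc, h1, mul_assoc]
    refine ⟨α + a * (β * T), β, γ + a * α + a * (κ * T), κ - a * β, ⟨?_, ?_⟩, ⟨b1, b2⟩, ⟨?_, ?_⟩, ⟨?_, ?_⟩, ?_, ?_⟩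
    · rw [add_mul α, mul_add δ, a1, hmul _ _ _ ha1 (hmul _ _ _ b1 hTδ)]
    · rw [add_mul α, mul_add ε, a2, hmul _ _ _ ha2 (hmul _ _ _ b2 hTε)]
    · rw [add_mul (γ + a * α), add_mul γ, mul_add δ, mul_add δ, c1, hmul _ _ _ ha1 a1,
        hmul _ _ _ ha1 (hmul _ _ _ d1 hTδ)]
    · rw [add_mul (γ + a * α), add_mul γ, mul_add ε, mul_add ε, c2, hmul _ _ _ ha2 a2,
        hmul _ _ _ ha2 (hmul _ _ _ d2 hTε)]
    · rw [sub_mul, mul_sub, d1, hmul _ _ _ ha1 b1]
    · rw [sub_mul, mul_sub, d2, hmul _ _ _ ha2 b2]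
    · have e1 : ε * α = α * ε := a2.symm
      have e2 : ε * (β * δ) = β * T - β * (δ * ε) := by
        rw [← mul_assoc, ← b2, mul_assoc, ← mul_sub, hT, add_sub_cancel_left]
      have e3 : ε * (γ * ε) = 0 := by rw [← mul_assoc, ← c2, mul_assoc, hε, mul_zero]
      have e4 : ε * (κ * (δ * ε)) = κ * T * ε := by
        rw [← mul_assoc, ← d2, mul_assoc, mul_assoc, hT]
        simp only [add_mul, mul_assoc, hε, mul_zero, zero_add]
      have e5 : ε * (α + β * δ + γ * ε + κ * (δ * ε)) = α * ε + (β * T - β * (δ * ε)) + κ * T * ε := by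
        simp only [mul_add, e1, e2, e3, e4, add_zero]
      rw [add_mul, one_mul, mul_assoc, e5]
      simp only [mul_add, add_mul, sub_mul, mul_sub, mul_zero, add_zero, mul_assoc]
      abel
    · have e1 : ∀ y, y * (a * ε) = a * (y * ε) := by
        intro y
        rw [← mul_assoc, ← ha3, mul_assoc]
      have e2 : γ * ε * (a * ε) = 0 := by rw [e1, mul_assoc, hε, mul_zero, mul_zero]
      have e3 : κ * (ε * δ) * (a * ε) = a * (κ * T * ε) := by
        rw [e1, hT]
        simp only [add_mul, mul_add, mul_assoc, hε, mul_zero, zero_add, add_zero]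
      have e4 : β * δ * (a * ε) = a * (β * T - β * (ε * δ)) := by
        rw [e1, ← mul_sub, hT, add_sub_cancel_right, mul_assoc]
      rw [mul_sub, mul_one, add_mul, sub_mul, sub_mul, e2, e3, e4, e1 α]
      simp only [mul_add, add_mul, sub_mul, mul_sub, mul_zero, add_zero, sub_zero, mul_assoc]
      abel
  induction hg using closure_induction_left with
  | one =>
    refine ⟨1, 0, 0, 0, ?_, ?_, ?_, ?_, ?_, ?_⟩ <;> simp
  | mul_left x hx y hy ih =>
    rcases hx with rfl | rfl
    · have h1 := stepδ 1 _ _ (by rw [one_mul, mul_one]) (by rw [one_mul, mul_one]) (fun y => by rw [one_mul, mul_one]) ih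
      rw [one_mul] at h1
      rw [mul_inv_rev, Units.val_mul, Units.val_mul, hd, hdi]
      exact h1
    · have h1 := stepε 1 _ _ (by rw [one_mul, mul_one]) (by rw [one_mul, mul_one]) (fun y => by rw [one_mul, mul_one]) ih
      rw [one_mul] at h1
      rw [mul_inv_rev, Units.val_mul, Units.val_mul, he, hei]
      exact h1
  | inv_mul_cancel x hx y hy ih =>
    rcases hx with rfl | rfl
    · have h1 := stepδ (-1) _ _ (by rw [neg_one_mul, mul_neg_one]) (by rw [neg_one_mul, mul_neg_one])
        (fun y => by rw [neg_one_mul, mul_neg_one]) ih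
      rw [neg_one_mul, ← sub_eq_add_neg, sub_neg_eq_add] at h1
      rw [mul_inv_rev, Units.val_mul, Units.val_mul, inv_inv, hd, hdi]
      exact h1
    · have h1 := stepε (-1) _ _ (by rw [neg_one_mul, mul_neg_one]) (by rw [neg_one_mul, mul_neg_one])
        (fun y => by rw [neg_one_mul, mul_neg_one]) ih
      rw [neg_one_mul, ← sub_eq_add_neg, sub_neg_eq_add] at h1
      rw [mul_inv_rev, Units.val_mul, Units.val_mul, inv_inv, he, hei]
      exact h1

/-- An involution of `⟨1 + δ, 1 + ε⟩` commutes with `δ` and `ε`. -/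
theorem involution_comm {δ ε : A} (h2 : ∀ x : A, x + x = 0 → x = 0) (hδ : δ * δ = 0) (hε : ε * ε = 0) {d e : Aˣ}
    (hd : (d : A) = 1 + δ) (hdi : ((d⁻¹ : Aˣ) : A) = 1 - δ) (he : (e : A) = 1 + ε)
    (hei : ((e⁻¹ : Aˣ) : A) = 1 - ε) {z : Aˣ} (hz : z ∈ closure ({d, e} : Set Aˣ)) (hzz : z * z = 1) :
    (z : A) * δ = δ * z ∧ (z : A) * ε = ε * z := by
  have hδ' : ∀ x, δ * (δ * x) = 0 := fun x => by rw [← mul_assoc, hδ, zero_mul]
  have hε' : ∀ x, ε * (ε * x) = 0 := fun x => by rw [← mul_assoc, hε, zero_mul]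
  obtain ⟨α, β, γ, κ, ⟨a1, a2⟩, ⟨b1, b2⟩, ⟨c1, c2⟩, ⟨d1, d2⟩, h1, h3⟩ := mem_shape hδ hε hd hdi he hei hz
  have hinv : z⁻¹ = z := inv_eq_of_mul_eq_one_left hzz
  rw [hinv] at h3
  obtain ⟨T, hT⟩ : ∃ T, T = δ * ε + ε * δ := ⟨_, rfl⟩
  have hsum : (z : A) + z = (α + α) + κ * T := by
    rw [hT, mul_add]
    nth_rewrite 1 [h1]
    rw [h3]
    abel
  have hTδ : T * δ = δ * T := by
    simp only [hT, mul_add, add_mul, mul_assoc, hδ, hδ', mul_zero, zero_add, add_zero]
  have hTε : T * ε = ε * T := by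
    simp only [hT, mul_add, add_mul, mul_assoc, hε, hε', mul_zero, zero_add, add_zero]
  have hmul : ∀ y y' t : A, y * t = t * y → y' * t = t * y' → y * y' * t = t * (y * y') := by
    intro y y' t h1 h2
    rw [mul_assoc, h2, ← mul_assoc, h1, mul_assoc]
  constructor
  · rw [← sub_eq_zero]
    apply h2
    have : (z : A) * δ - δ * z + (z * δ - δ * z) = (z + z) * δ - δ * (z + z) := by rw [add_mul, mul_add]; abel
    rw [this, hsum, add_mul (α + α), mul_add δ (α + α), add_mul α, mul_add δ α, a1, hmul _ _ _ d1 hTδ, sub_self]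
  · rw [← sub_eq_zero]
    apply h2
    have : (z : A) * ε - ε * z + (z * ε - ε * z) = (z + z) * ε - ε * (z + z) := by rw [add_mul, mul_add]; abel
    rw [this, hsum, add_mul (α + α), mul_add ε (α + α), add_mul α, mul_add ε α, a2, hmul _ _ _ d2 hTε, sub_self]

end Ring

end Cfsg.Agent.H874
end

-- part: H874/SlotY
section
/-!
# The slot lemma for `dim W ≥ 4`

`S.Good M`, `M` finite, characteristic not two, `dim W ≥ 4`: a member of `DM M` commutes with all `tv w l` or is a
slot transvection.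
-/

set_option autoImplicit false
set_option linter.unusedSimpArgs false
set_option linter.unusedVariables false

namespace Cfsg.Agent.H874

open Subgroup

namespace Slot

variable {F W W' V : Type*} [Field F] [AddCommGroup W] [Module F W] [AddCommGroup W'] [Module F W']
    [AddCommGroup V] [Module F V] {S : Slot F W W' V}

theorem add_self_zero {X : Type*} [AddCommGroup X] [Module F X] (h2 : (2 : F) ≠ 0) {x : X} (h : x + x = 0) : x = 0 := by
  rw [← two_smul F x] at h
  exact (smul_eq_zero.1 h).resolve_left h2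

theorem eq_zero_of_eq_neg {X : Type*} [AddCommGroup X] [Module F X] (h2 : (2 : F) ≠ 0) {x : X} (h : x = -x) : x = 0 := by
  refine add_self_zero h2 ?_
  nth_rewrite 1 [h]
  rw [neg_add_cancel]

/-- Elements of `⟨d, e⟩` fix the vectors killed by `d - 1` and `e - 1`. -/
theorem fix_of_closure {d e z : (Module.End F V)ˣ} (hz : z ∈ closure ({d, e} : Set (Module.End F V)ˣ)) {y : V}
    (hd : (d : Module.End F V) y = y) (he : (e : Module.End F V) y = y) : (z : Module.End F V) y = y := by
  induction hz using closure_induction with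
  | mem x hx =>
    rcases hx with rfl | rfl
    · exact hd
    · exact he
  | one => rfl
  | mul a b _ _ ha hb => rw [Units.val_mul, Module.End.mul_apply, hb, ha]
  | inv a _ ha =>
    have h1 := inv_apply a y
    rwa [ha] at h1

/-- `T = δ ε + ε δ` is injective on `ker (z + 1)`. -/
theorem T_inj (h2 : (2 : F) ≠ 0) {δ ε : Module.End F V} (hδ : δ * δ = 0) (hε : ε * ε = 0)
    {d e z : (Module.End F V)ˣ} (hd : (d : Module.End F V) = 1 + δ) (he : (e : Module.End F V) = 1 + ε)
    (hz : z ∈ closure ({d, e} : Set (Module.End F V)ˣ)) (zδ : (z : Module.End F V) * δ = δ * z)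
    (zε : (z : Module.End F V) * ε = ε * z) {x : V} (hx : (z : Module.End F V) x = -x)
    (hT : δ (ε x) + ε (δ x) = 0) : x = 0 := by
  have δδ : ∀ x, δ (δ x) = 0 := fun x => LinearMap.congr_fun hδ x
  have εε : ∀ x, ε (ε x) = 0 := fun x => LinearMap.congr_fun hε x
  have zδ' : ∀ x, (z : Module.End F V) (δ x) = δ ((z : Module.End F V) x) := fun x => LinearMap.congr_fun zδ x
  have zε' : ∀ x, (z : Module.End F V) (ε x) = ε ((z : Module.End F V) x) := fun x => LinearMap.congr_fun zε x
  -- killed by both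
  have key : ∀ y, (z : Module.End F V) y = -y → δ y = 0 → ε y = 0 → y = 0 := by
    intro y h1 h3 h4
    have h5 : (z : Module.End F V) y = y := fix_of_closure hz
      (by rw [hd, LinearMap.add_apply, Module.End.one_apply, h3, add_zero])
      (by rw [he, LinearMap.add_apply, Module.End.one_apply, h4, add_zero])
    rw [h5] at h1
    exact eq_zero_of_eq_neg h2 h1
  -- killed by `δ`
  have key2 : ∀ y, (z : Module.End F V) y = -y → δ y = 0 → δ (ε y) = 0 → y = 0 := by
    intro y h1 h3 h4
    refine key y h1 h3 ?_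
    exact key _ (by rw [zε', h1, map_neg]) h4 (εε y)
  have h3 : δ x = 0 := by
    refine key2 _ (by rw [zδ', hx, map_neg]) (δδ x) ?_
    have h4 := congrArg δ hT
    rwa [map_add, δδ, zero_add, map_zero] at h4
  refine key2 x hx h3 ?_
  rwa [h3, map_zero, add_zero] at hT

/-- Exactness of `δ` on `ker (z + 1)`. -/
theorem exact_of_inv [FiniteDimensional F V] (h2 : (2 : F) ≠ 0) {δ ε : Module.End F V} (hδ : δ * δ = 0)
    (hε : ε * ε = 0) {d e z : (Module.End F V)ˣ} (hd : (d : Module.End F V) = 1 + δ)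
    (he : (e : Module.End F V) = 1 + ε) (hz : z ∈ closure ({d, e} : Set (Module.End F V)ˣ))
    (zδ : (z : Module.End F V) * δ = δ * z) (zε : (z : Module.End F V) * ε = ε * z) {x : V}
    (hx : (z : Module.End F V) x = -x) (hδx : δ x = 0) : ∃ y, x = δ y := by
  have δδ : ∀ x, δ (δ x) = 0 := fun x => LinearMap.congr_fun hδ x
  have zδ' : ∀ x, (z : Module.End F V) (δ x) = δ ((z : Module.End F V) x) := fun x => LinearMap.congr_fun zδ x
  have zε' : ∀ x, (z : Module.End F V) (ε x) = ε ((z : Module.End F V) x) := fun x => LinearMap.congr_fun zε x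
  let K : Submodule F V := LinearMap.ker ((z : Module.End F V) + 1) ⊓ LinearMap.ker δ
  have hK : ∀ y, y ∈ K ↔ ((z : Module.End F V) y = -y ∧ δ y = 0) := by
    intro y
    rw [Submodule.mem_inf, LinearMap.mem_ker, LinearMap.mem_ker, LinearMap.add_apply, Module.End.one_apply,
      add_eq_zero_iff_eq_neg]
  let T : Module.End F V := δ * ε
  have hTK : ∀ y ∈ K, T y ∈ K := by
    intro y hy
    obtain ⟨h1, h3⟩ := (hK y).1 hy
    refine (hK _).2 ⟨?_, ?_⟩
    · show (z : Module.End F V) (δ (ε y)) = -(δ (ε y))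
      rw [zδ', zε', h1, map_neg, map_neg]
    · exact δδ _
  have hinj : Function.Injective (T.restrict hTK) := by
    rw [injective_iff_map_eq_zero]
    intro y hy
    obtain ⟨h1, h3⟩ := (hK y).1 y.2
    have h4 : δ (ε (y : V)) = 0 := congrArg Subtype.val hy
    apply Subtype.ext
    refine T_inj h2 hδ hε hd he hz zδ zε h1 ?_
    rw [h4, h3, map_zero, add_zero]
  obtain ⟨y, hy⟩ := (LinearMap.injective_iff_surjective.1 hinj) ⟨x, (hK x).2 ⟨hx, hδx⟩⟩
  exact ⟨ε y, (congrArg Subtype.val hy).symm⟩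

/-- The involution `(tv w 1 * tv u 1 * tv w 1) ^ 2` for `ω w u = 1`. -/
theorem exists_z0 {M : Subgroup (Module.End F V)ˣ} (htv : ∀ w l, S.tv w l ∈ M) {w u : W} (hwu : S.ω w u = 1) :
    ∃ z ∈ M, ∀ x, (z : Module.End F V) x = x + ((2 : F) • S.i w (S.c u x) - (2 : F) • S.i u (S.c w x)) := by
  refine ⟨(S.tv w 1 * S.tv u 1 * S.tv w 1) * (S.tv w 1 * S.tv u 1 * S.tv w 1), ?_, ?_⟩
  · have h : S.tv w 1 * S.tv u 1 * S.tv w 1 ∈ M := M.mul_mem (M.mul_mem (htv _ _) (htv _ _)) (htv _ _)
    exact M.mul_mem h h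
  · have huw : S.ω u w = -1 := by rw [S.skew, hwu]
    have hP : ∀ x, ((S.tv w 1 * S.tv u 1 * S.tv w 1 : (Module.End F V)ˣ) : Module.End F V) x
        = x + S.i w (S.c w x) + S.i w (S.c u x) + S.i u (S.c u x) - S.i u (S.c w x) := by
      intro x
      simp only [Units.val_mul, Module.End.mul_apply, S.tv_apply, map_add, S.ci, S.alt, hwu, huw, one_smul, zero_smul,
        neg_smul, map_neg, map_zero, add_zero, zero_add]
      abel
    intro x
    rw [Units.val_mul, Module.End.mul_apply, hP x, hP]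
    simp only [map_add, map_sub, S.ci, S.alt, hwu, huw, one_smul, zero_smul, neg_smul, map_neg, map_zero, add_zero,
      zero_add, two_smul]
    abel

/-- An involution of `M` commuting with `Δ w` and exact with respect to it is the involution of a hyperbolic pair. -/
theorem Good.invol [FiniteDimensional F W] [Nontrivial W'] {M : Subgroup (Module.End F V)ˣ} (hM : S.Good M)
    (h2 : (2 : F) ≠ 0) {w : W} (hw : w ≠ 0) (hdim : ∃ v, S.ω w v = 0 ∧ ∀ a : F, v ≠ a • w)
    {z : (Module.End F V)ˣ} (hzM : z ∈ M) (hzz : z * z = 1) (hz1 : z ≠ 1)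
    (zΔ : ∀ x, (z : Module.End F V) (S.i w (S.c w x)) = S.i w (S.c w ((z : Module.End F V) x)))
    (hex : ∀ x, (z : Module.End F V) x = -x → S.c w x = 0 → ∃ y, x = S.i w y) :
    ∃ u, S.ω w u = 1 ∧
      ∀ x, (z : Module.End F V) x = x + ((2 : F) • S.i w (S.c u x) - (2 : F) • S.i u (S.c w x)) := by
  have ww := S.alt w
  have zz : ∀ x, (z : Module.End F V) ((z : Module.End F V) x) = x := by
    intro x
    rw [← Module.End.mul_apply, ← Units.val_mul, hzz, Units.val_one, Module.End.one_apply]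
  obtain ⟨u, hu⟩ := S.exists_pair hw
  have huw : S.ω u w = -1 := by rw [S.skew, hu]
  let ζ : Module.End F W' := S.c w ∘ₗ (z : Module.End F V) ∘ₗ S.i u
  have hζi : ∀ y, (z : Module.End F V) (S.i w y) = S.i w (ζ y) := by
    intro y
    have h3 := zΔ (S.i u y)
    rwa [S.ci, hu, one_smul] at h3
  have hζc : ∀ x, S.c w ((z : Module.End F V) x) = ζ (S.c w x) := by
    intro x
    have h3 := zΔ x
    rw [hζi] at h3
    exact (S.i_injective hw h3).symm
  have hζζ : ∀ y, ζ (ζ y) = y := by
    intro y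
    refine S.i_injective hw ?_
    rw [← hζi, ← hζi, zz]
  -- `z` is trivial on `ker c w / range i w`
  have hker : ∀ x, S.c w x = 0 → ∃ y, (z : Module.End F V) x = x + S.i w y := by
    intro x hx
    obtain ⟨y, hy⟩ := hex ((z : Module.End F V) x - x) (by rw [map_sub, zz, neg_sub])
      (by rw [map_sub, hζc, hx, map_zero, sub_zero])
    exact ⟨y, by rw [← hy]; abel⟩
  -- `ζ` is scalar
  obtain ⟨v, hwv, hv⟩ := hdim
  have hvw := S.perp_comm hwv
  obtain ⟨b, hwb, hbv⟩ := exists_perp_pair hw hwv hv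
  have hvb : S.ω v b = -1 := by rw [S.skew, hbv]
  have hsg : ∀ x, ((S.sg w v hwv : (Module.End F V)ˣ) : Module.End F V) x = x + (S.i v (S.c w x) + S.i w (S.c v x)) :=
    fun x => rfl
  have hsgM : S.sg w v hwv ∈ M := by
    rw [S.sg_eq]
    exact M.mul_mem (M.mul_mem (hM.tv_mem _ _) (hM.tv_mem _ _)) (hM.tv_mem _ _)
  obtain ⟨a, m, hwa, ham⟩ := hM.radical h2 hw (M.mul_mem (M.mul_mem hzM hsgM) hzM)
    (by
      intro y
      rw [Units.val_mul, Module.End.mul_apply, Units.val_mul, Module.End.mul_apply, hζi, hsg]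
      simp only [S.ci, ww, hvw, zero_smul, map_zero, add_zero]
      rw [hζi, hζζ])
    (by
      intro x
      rw [Units.val_mul, Module.End.mul_apply, Units.val_mul, Module.End.mul_apply, hζc, hsg]
      simp only [map_add, S.ci, hwv, ww, zero_smul, add_zero, map_zero]
      rw [hζc, hζζ])
    (by
      intro x hx
      obtain ⟨y, hy⟩ := hker x hx
      obtain ⟨y', hy'⟩ := hker (x + S.i w y + (S.i v (S.c w (x + S.i w y)) + S.i w (S.c v (x + S.i w y)))) (by
        simp only [map_add, S.ci, ww, hwv, hx, zero_smul, map_zero, add_zero])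
      refine ⟨y + S.c v x + y', ?_⟩
      rw [Units.val_mul, Module.End.mul_apply, Units.val_mul, Module.End.mul_apply, hy, hsg, hy']
      simp only [map_add, S.ci, ww, hwv, hvw, hx, zero_smul, map_zero, add_zero, zero_add]
      abel)
  have hζs : ∀ x, S.c w x = 0 → ζ (S.c v x) = S.c a x := by
    intro x hx
    have h3 := ham x
    rw [S.Sv_apply, S.Δ_apply, hx, map_zero, map_zero, smul_zero, zero_add, add_zero, Units.val_mul,
      Module.End.mul_apply, Units.val_mul, Module.End.mul_apply, hsg, map_add, zz, hζc, hx, map_zero, map_zero,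
      zero_add, hζi, add_right_inj] at h3
    obtain ⟨y, hy⟩ := hker x hx
    rw [hy, map_add, S.ci, hvw, zero_smul, add_zero] at h3
    exact S.i_injective hw h3
  obtain ⟨μ, hμ⟩ : ∃ μ : F, ∀ y, ζ y = μ • y := by
    refine ⟨- S.ω a b, fun y => ?_⟩
    have h3 := hζs (S.i b y) (by rw [S.ci, hwb, zero_smul])
    rw [S.ci, S.ci, hvb, neg_smul, one_smul, map_neg] at h3
    rw [neg_smul, ← h3, neg_neg]
  obtain ⟨y0, hy0⟩ := exists_ne (0 : W')
  have hμμ : μ * μ = 1 := by
    have h3 := hζζ y0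
    rw [hμ, hμ, smul_smul] at h3
    have h4 : (μ * μ - 1) • y0 = 0 := by rw [sub_smul, one_smul, h3, sub_self]
    exact sub_eq_zero.1 ((smul_eq_zero.1 h4).resolve_right hy0)
  have hμ1 : μ ≠ 1 := by
    intro h
    apply hz1
    refine ext_unit fun x => ?_
    rw [Units.val_one, Module.End.one_apply, ← sub_eq_zero]
    obtain ⟨y, hy⟩ := hex ((z : Module.End F V) x - x) (by rw [map_sub, zz, neg_sub])
      (by rw [map_sub, hζc, hμ, h, one_smul, sub_self])
    have h3 : (z : Module.End F V) ((z : Module.End F V) x - x) = (z : Module.End F V) x - x := by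
      rw [hy, hζi, hμ, h, one_smul]
    rw [map_sub, zz, ← neg_sub] at h3
    exact eq_zero_of_eq_neg h2 h3.symm
  have hμ' : μ = -1 := by
    have h3 : (μ - 1) * (μ + 1) = 0 := by ring_nf; rw [pow_two, hμμ]; ring
    rcases mul_eq_zero.1 h3 with h | h
    · exact absurd (sub_eq_zero.1 h) hμ1
    · exact eq_neg_of_add_eq_zero_left h
  have hzi : ∀ y, (z : Module.End F V) (S.i w y) = - S.i w y := by
    intro y
    rw [hζi, hμ, hμ', neg_smul, one_smul, map_neg]
  have hzc : ∀ x, S.c w ((z : Module.End F V) x) = - S.c w x := by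
    intro x
    rw [hζc, hμ, hμ', neg_smul, one_smul]
  -- compare with `z0`
  obtain ⟨z0, hz0M, hz0⟩ := exists_z0 hM.tv_mem hu
  obtain ⟨a', m', hwa', ham'⟩ := hM.radical h2 hw (M.mul_mem hzM hz0M)
    (by
      intro y
      rw [Units.val_mul, Module.End.mul_apply, hz0, S.ci, S.ci, ww, huw, zero_smul, map_zero, smul_zero, sub_zero,
        neg_smul, one_smul, map_neg, smul_neg, two_smul, map_add, map_neg, map_add, hzi]
      abel)
    (by
      intro x
      rw [Units.val_mul, Module.End.mul_apply, hzc, hz0, map_add, map_sub, map_smul, map_smul, S.ci, S.ci, ww, hu,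
        zero_smul, smul_zero, one_smul, two_smul]
      abel)
    (by
      intro x hx
      obtain ⟨y, hy⟩ := hker (x + (2 : F) • S.i w (S.c u x)) (by rw [map_add, map_smul, S.ci, ww, hx, zero_smul, smul_zero, add_zero])
      refine ⟨(2 : F) • S.c u x + y, ?_⟩
      rw [Units.val_mul, Module.End.mul_apply, hz0, hx, map_zero, smul_zero, sub_zero, hy, map_add, map_smul, add_assoc])
  have haw' := S.perp_comm hwa'
  have z0z0 : ∀ x, (z0 : Module.End F V) ((z0 : Module.End F V) x) = x := by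
    intro x
    rw [hz0 x, hz0]
    simp only [map_add, map_sub, map_smul, S.ci, S.alt, hu, huw, one_smul, zero_smul, neg_smul, map_neg, map_zero,
      add_zero, zero_add, two_smul, smul_neg, smul_zero]
    abel
  have hform : ∀ x, (z : Module.End F V) x
      = x + ((2 : F) • S.i w (S.c (u + (2⁻¹ : F) • a') x) - (2 : F) • S.i (u + (2⁻¹ : F) • a') (S.c w x))
        - (m' + 2 * S.ω a' u) • S.i w (S.c w x) := by
    intro x
    have h3 := ham' ((z0 : Module.End F V) x)
    rw [Units.val_mul, Module.End.mul_apply, z0z0] at h3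
    rw [h3, hz0, S.Sv_apply, S.Δ_apply]
    simp only [map_add, map_sub, map_smul, LinearMap.add_apply, LinearMap.smul_apply, S.ci, ww, hu, haw', hwa',
      smul_add, smul_sub, smul_smul, mul_inv_cancel₀ h2, one_smul, zero_smul, smul_zero, map_zero, add_zero, zero_add,
      add_smul, two_smul, neg_smul, two_mul]
    abel
  refine ⟨u + (2⁻¹ : F) • a', by rw [map_add, map_smul, hu, hwa', smul_zero, add_zero], fun x => ?_⟩
  have hu' : S.ω w (u + (2⁻¹ : F) • a') = 1 := by rw [map_add, map_smul, hu, hwa', smul_zero, add_zero]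
  generalize u + (2⁻¹ : F) • a' = u' at hform hu'
  generalize m' + 2 * S.ω a' u = m at hform
  have huw' : S.ω u' w = -1 := by rw [S.skew, hu']
  have hm : m = 0 := by
    have h3 := zz (S.i u' y0)
    rw [hform (S.i u' y0), hform] at h3
    simp only [map_add, map_sub, map_smul, S.ci, S.alt, hu', huw', one_smul, zero_smul, neg_smul, map_neg, map_zero,
      add_zero, zero_add, two_smul, smul_neg, smul_zero, sub_zero, zero_sub, smul_sub, smul_add] at h3
    have h4 : (2 * m) • S.i w y0 = 0 := by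
      rw [two_mul, add_smul, ← sub_eq_zero.2 h3]
      abel
    have h5 : S.i w y0 ≠ 0 := by
      intro h
      exact hy0 (S.i_injective hw (by rw [h, map_zero]))
    exact (mul_eq_zero.1 ((smul_eq_zero.1 h4).resolve_right h5)).resolve_left h2
  rw [hform, hm, zero_smul, sub_zero]

/-- The shape of a member of `DM M` not commuting with `tv w l`. -/
theorem Good.local_form [FiniteDimensional F W] [FiniteDimensional F W'] [Nontrivial W'] [Finite V] {p : ℕ}
    [Fact p.Prime] [CharP F p]
    {M : Subgroup (Module.End F V)ˣ} [Finite M] (hM : S.Good M) (h2 : (2 : F) ≠ 0)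
    (hdim : ∀ w, w ≠ 0 → ∃ v, S.ω w v = 0 ∧ ∀ a : F, v ≠ a • w) {w : W} (hw : w ≠ 0) {l : F} (hl : l ≠ 0)
    {e : (Module.End F V)ˣ} (he : e ∈ S.DM M) (hne : S.tv w l * e ≠ e * S.tv w l) :
    ∃ u, S.ω w u = 1 ∧
      (∀ v, S.ω w v = 0 → S.ω u v = 0 → (∀ y, (e : Module.End F V) (S.i v y) = S.i v y) ∧
        ∀ x, S.c v ((e : Module.End F V) x) = S.c v x) ∧
      ∀ y, S.c w ((e : Module.End F V) (S.i w y)) = 0 → y = 0 := by
  have hp2 : p ≠ 2 := by
    rintro rfl
    exact h2 (by exact_mod_cast CharP.cast_eq_zero F 2)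
  have h2A : ∀ x : Module.End F V, x + x = 0 → x = 0 := fun x hx => add_self_zero h2 hx
  have heM := DM_subset hM.tv_mem he
  have hnp : ¬ IsPGroup p (closure ({S.tv w l, e} : Set (Module.End F V)ˣ)) := fun h =>
    hne (hM.comm_of_pgroup h2 (tv_mem_DM M hw hl) he h)
  obtain ⟨g, hg, w0, hw0, l0, hl0, heq⟩ := he
  obtain ⟨δ, hδ⟩ : ∃ δ : Module.End F V, δ = l • S.Δ w := ⟨_, rfl⟩
  obtain ⟨ε, hε⟩ : ∃ ε : Module.End F V, ε = l0 • ((g : Module.End F V) * S.Δ w0 * ((g⁻¹ : (Module.End F V)ˣ) : Module.End F V)) :=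
    ⟨_, rfl⟩
  have hδa : ∀ x, δ x = l • S.i w (S.c w x) := fun x => by rw [hδ]; rfl
  have hεa : ∀ x, ε x = l0 • (g : Module.End F V) (S.i w0 (S.c w0 (((g⁻¹ : (Module.End F V)ˣ) : Module.End F V) x))) :=
    fun x => by rw [hε]; rfl
  have hδδ : δ * δ = 0 := by rw [hδ, smul_mul_smul_comm, S.Δ_mul_Δ_of_perp (S.alt w), smul_zero]
  have hεε : ε * ε = 0 := by
    ext x
    rw [Module.End.mul_apply, hεa, hεa, map_smul, inv_apply, map_smul, S.ci, S.alt, zero_smul, smul_zero, map_zero,
      map_zero, smul_zero, LinearMap.zero_apply]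
  have hd : ((S.tv w l : (Module.End F V)ˣ) : Module.End F V) = 1 + δ := by rw [hδ]; rfl
  have hdi : (((S.tv w l)⁻¹ : (Module.End F V)ˣ) : Module.End F V) = 1 - δ := by rw [hδ]; rfl
  have he1 : (e : Module.End F V) = 1 + ε := by
    ext x
    rw [heq, LinearMap.add_apply, hεa, Module.End.one_apply]
    simp only [Units.val_mul, Module.End.mul_apply, S.tv_apply, map_add, map_smul, apply_inv]
  have hei : ((e⁻¹ : (Module.End F V)ˣ) : Module.End F V) = 1 - ε := by
    ext x
    refine inv_apply_of_sq (A := fun x => ε x) (fun x => by rw [he1]; rfl) (fun x => ?_) x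
    have h5 : ε (ε x) = 0 := LinearMap.congr_fun hεε x
    simp only [map_sub, h5, sub_zero]
  obtain ⟨z, hz, hz1, hzz⟩ := exists_involution (F := F) hp2 (d := S.tv w l) (e := e)
    (fun x => by
      have h5 : δ (δ x) = 0 := LinearMap.congr_fun hδδ x
      rw [hd, LinearMap.add_apply, LinearMap.add_apply, Module.End.one_apply, Module.End.one_apply, add_sub_cancel_left,
        h5, add_zero])
    (fun x => by
      have h5 : ε (ε x) = 0 := LinearMap.congr_fun hεε x
      rw [he1, LinearMap.add_apply, LinearMap.add_apply, Module.End.one_apply, Module.End.one_apply,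
        add_sub_cancel_left, h5, add_zero]) hnp
  obtain ⟨zδ, zε⟩ := involution_comm h2A hδδ hεε hd hdi he1 hei hz hzz
  have zδ' : ∀ x, (z : Module.End F V) (δ x) = δ ((z : Module.End F V) x) := fun x => LinearMap.congr_fun zδ x
  have zε' : ∀ x, (z : Module.End F V) (ε x) = ε ((z : Module.End F V) x) := fun x => LinearMap.congr_fun zε x
  have hzM : z ∈ M := by
    have h5 : closure ({S.tv w l, e} : Set (Module.End F V)ˣ) ≤ M := by
      rw [closure_le]
      rintro x (rfl | rfl)
      · exact hM.tv_mem _ _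
      · exact heM
    exact h5 hz
  obtain ⟨u, hu, hform⟩ := hM.invol h2 hw (hdim w hw) hzM hzz hz1
    (by
      intro x
      have h5 := zδ' x
      rw [hδa, hδa, map_smul] at h5
      exact smul_right_injective V hl h5)
    (by
      intro x hx hx'
      obtain ⟨y, hy⟩ := exact_of_inv h2 hδδ hεε hd he1 hz zδ zε hx (by rw [hδa, hx', map_zero, smul_zero])
      exact ⟨l • S.c w y, by rw [hy, hδa, map_smul]⟩)
  have hzM' : g⁻¹ * z * g ∈ M := M.mul_mem (M.mul_mem (M.inv_mem hg) hzM) hg
  have hz' : ∀ x, ((g⁻¹ * z * g : (Module.End F V)ˣ) : Module.End F V) x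
      = ((g⁻¹ : (Module.End F V)ˣ) : Module.End F V) ((z : Module.End F V) ((g : Module.End F V) x)) := by
    intro x
    simp only [Units.val_mul, Module.End.mul_apply]
  have hεg : ∀ x, ε ((g : Module.End F V) x) = l0 • (g : Module.End F V) (S.i w0 (S.c w0 x)) := by
    intro x
    rw [hεa, inv_apply]
  have hz2 : z ∈ closure ({e, S.tv w l} : Set (Module.End F V)ˣ) := by rwa [Set.pair_comm]
  obtain ⟨u0, hu0, hform0⟩ := hM.invol h2 hw0 (hdim w0 hw0) hzM'
    (by
      have h5 : g⁻¹ * z * g * (g⁻¹ * z * g) = g⁻¹ * (z * z) * g := by group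
      rw [h5, hzz, mul_one, inv_mul_cancel])
    (by
      intro h5
      apply hz1
      have h6 : z = g * (g⁻¹ * z * g) * g⁻¹ := by group
      rw [h6, h5, mul_one, mul_inv_cancel])
    (by
      intro x
      have h5 := zε' ((g : Module.End F V) x)
      rw [hεg, hεa, map_smul] at h5
      have h6 := smul_right_injective V hl0 h5
      rw [hz', hz', h6, inv_apply])
    (by
      intro x hx hx'
      rw [hz'] at hx
      have hx2 : (z : Module.End F V) ((g : Module.End F V) x) = - (g : Module.End F V) x := by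
        rw [← map_neg, ← hx, apply_inv]
      obtain ⟨y, hy⟩ := exact_of_inv h2 hεε hδδ he1 hd hz2 zε zδ hx2 (by rw [hεg, hx', map_zero, map_zero, smul_zero])
      refine ⟨l0 • S.c w0 (((g⁻¹ : (Module.End F V)ˣ) : Module.End F V) y), ?_⟩
      rw [hεa, ← map_smul] at hy
      have h6 := congrArg (((g⁻¹ : (Module.End F V)ˣ) : Module.End F V)) hy
      rw [inv_apply, inv_apply, ← map_smul] at h6
      exact h6)
  have hu0w0 : S.ω u0 w0 = -1 := by rw [S.skew, hu0]
  -- `z x = x` implies `ε x = 0`; `z (ε x) = - ε x`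
  have hεz : ∀ x, (z : Module.End F V) (ε x) = - ε x := by
    intro x
    rw [hεa]
    generalize S.c w0 (((g⁻¹ : (Module.End F V)ˣ) : Module.End F V) x) = y
    have h5 := hform0 (S.i w0 y)
    rw [hz', S.ci, S.ci, S.alt, hu0w0, zero_smul, map_zero, smul_zero, sub_zero, neg_smul, one_smul, map_neg, smul_neg,
      two_smul] at h5
    have h6 := congrArg (g : Module.End F V) h5
    rw [apply_inv] at h6
    rw [map_smul, h6, ← smul_neg, ← map_neg]
    congr 2
    abel
  have hzε : ∀ x, (z : Module.End F V) x = x → ε x = 0 := by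
    intro x hx
    refine eq_zero_of_eq_neg h2 ?_
    nth_rewrite 1 [← hx]
    rw [← zε', hεz]
  have he2 : ∀ x, (e : Module.End F V) x = x + ε x := fun x => by rw [he1]; rfl
  have huw : S.ω u w = -1 := by rw [S.skew, hu]
  refine ⟨u, hu, fun v hwv huv => ⟨fun y => ?_, fun x => ?_⟩, fun y hy => ?_⟩
  · rw [he2, hzε, add_zero]
    rw [hform, S.ci, S.ci, hwv, huv, zero_smul, map_zero, map_zero, smul_zero, sub_zero, add_zero]
  · have h5 : S.c v (ε x) = 0 := by
      refine eq_zero_of_eq_neg h2 ?_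
      have h6 := hεz x
      rw [hform] at h6
      rw [← map_neg, ← h6, map_add, map_sub, map_smul, map_smul, S.ci, S.ci, S.perp_comm hwv, S.perp_comm huv,
        zero_smul, zero_smul, smul_zero, sub_zero, add_zero]
    rw [he2, map_add, h5, add_zero]
  · rw [he2, map_add, S.ci, S.alt, zero_smul, zero_add] at hy
    have h5 : S.i w y = 0 := by
      refine T_inj h2 hδδ hεε hd he1 hz zδ zε ?_ ?_
      · rw [hform, S.ci, S.ci, S.alt, huw, zero_smul, map_zero, smul_zero, sub_zero, neg_smul, one_smul, map_neg,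
          smul_neg, two_smul]
        abel
      · rw [hδa (S.i w y), S.ci, S.alt, zero_smul, map_zero, smul_zero, map_zero, add_zero, hδa, hy, map_zero,
          smul_zero]
    exact S.i_injective hw (by rw [h5, map_zero])

/-- **The slot lemma**, `dim W ≥ 4`. -/
theorem Good.slot_lemma [FiniteDimensional F W] [FiniteDimensional F W'] [Nontrivial W'] [Finite V] {p : ℕ}
    [Fact p.Prime] [CharP F p]
    {M : Subgroup (Module.End F V)ˣ} [Finite M] (hM : S.Good M) (h2 : (2 : F) ≠ 0)
    (hdim : ∀ w, w ≠ 0 → ∃ v, S.ω w v = 0 ∧ ∀ a : F, v ≠ a • w)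
    {e : (Module.End F V)ˣ} (he : e ∈ S.DM M) :
    (∀ w l, S.tv w l * e = e * S.tv w l) ∨ ∃ b l, b ≠ 0 ∧ e = S.tv b l := by
  classical
  by_cases hall : ∀ w l, S.tv w l * e = e * S.tv w l
  · exact Or.inl hall
  right
  push Not at hall
  obtain ⟨w, l, hne⟩ := hall
  have hl : l ≠ 0 := by
    rintro rfl
    apply hne
    have : S.tv w 0 = 1 := by
      refine ext_unit fun x => ?_
      rw [S.tv_apply, zero_smul, add_zero]
      rfl
    rw [this, one_mul, mul_one]
  have hw : w ≠ 0 := by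
    rintro rfl
    apply hne
    have : S.tv 0 l = 1 := by
      refine ext_unit fun x => ?_
      rw [S.tv_apply, map_zero, LinearMap.zero_apply, smul_zero, add_zero]
      rfl
    rw [this, one_mul, mul_one]
  have heM := DM_subset hM.tv_mem he
  obtain ⟨u, hu, hK, hinj⟩ := hM.local_form h2 hdim hw hl he hne (p := p)
  have huw : S.ω u w = -1 := by rw [S.skew, hu]
  obtain ⟨v, hwv, hv⟩ := hdim w hw
  obtain ⟨v0, hv0, hwv0, huv0⟩ : ∃ v0, v0 ≠ 0 ∧ S.ω w v0 = 0 ∧ S.ω u v0 = 0 := by
    refine ⟨v + S.ω u v • w, fun h => ?_, ?_, ?_⟩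
    · exact hv (- S.ω u v) (by rw [neg_smul]; exact eq_neg_of_add_eq_zero_left h)
    · rw [map_add, map_smul, hwv, S.alt, smul_zero, add_zero]
    · rw [map_add, map_smul, huw, smul_eq_mul, mul_neg, mul_one, add_neg_cancel]
  have hv0w := S.perp_comm hwv0
  have hv0u := S.perp_comm huv0
  have hw1 : w + v0 ≠ 0 := by
    intro h
    have h5 : S.ω (w + v0) u = 0 := by rw [h, map_zero, LinearMap.zero_apply]
    rw [map_add, LinearMap.add_apply, hu, hv0u, add_zero] at h5
    exact one_ne_zero h5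
  have hv0K := hK v0 hwv0 huv0
  obtain ⟨y0, hy0⟩ := exists_ne (0 : W')
  have hne1 : S.tv (w + v0) 1 * e ≠ e * S.tv (w + v0) 1 := by
    intro h
    apply hy0
    apply hinj
    have h5 := congrArg (fun t : (Module.End F V)ˣ => (t : Module.End F V) (S.i (w + v0) y0)) h
    simp only [Units.val_mul, Module.End.mul_apply] at h5
    rw [S.tv_apply, S.tv_apply, S.ci, S.alt, zero_smul, map_zero, smul_zero, add_zero, one_smul, add_eq_left] at h5
    have h6 : S.c (w + v0) ((e : Module.End F V) (S.i (w + v0) y0)) = 0 := S.i_injective hw1 (by rw [h5, map_zero])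
    have h7 : S.c (w + v0) ((e : Module.End F V) (S.i (w + v0) y0)) = S.c w ((e : Module.End F V) (S.i w y0)) := by
      rw [map_add S.c, LinearMap.add_apply, hv0K.2, map_add S.i, LinearMap.add_apply, map_add, hv0K.1, map_add, map_add,
        S.ci, S.ci, S.ci, hwv0, hv0w, S.alt, zero_smul, add_zero, add_zero, add_zero]
    rw [← h7, h6]
  obtain ⟨u1, hu1, hK1, -⟩ := hM.local_form h2 hdim hw1 one_ne_zero he hne1 (p := p)
  have hu1w1 : S.ω u1 (w + v0) = -1 := by rw [S.skew, hu1]
  -- the subspace of the `v` such that `e` is trivial on `v`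
  let K : Set W := {v | (∀ y, (e : Module.End F V) (S.i v y) = S.i v y) ∧
    ∀ x, S.c v ((e : Module.End F V) x) = S.c v x}
  have hKadd : ∀ a b, a ∈ K → b ∈ K → a + b ∈ K := by
    rintro a b ⟨ha1, ha2⟩ ⟨hb1, hb2⟩
    refine ⟨fun y => ?_, fun x => ?_⟩
    · rw [map_add, LinearMap.add_apply, map_add, ha1, hb1]
    · rw [map_add, LinearMap.add_apply, LinearMap.add_apply, ha2, hb2]
  have hKsmul : ∀ (t : F) a, a ∈ K → t • a ∈ K := by
    rintro t a ⟨ha1, ha2⟩
    refine ⟨fun y => ?_, fun x => ?_⟩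
    · rw [map_smul, LinearMap.smul_apply, map_smul, ha1]
    · rw [map_smul, LinearMap.smul_apply, LinearMap.smul_apply, ha2]
  obtain ⟨v1, hv11, hv12, hv13⟩ : ∃ v1, S.ω (w + v0) v1 = 0 ∧ S.ω u1 v1 = 0 ∧ ¬ (S.ω w v1 = 0 ∧ S.ω u v1 = 0) := by
    by_contra hcon
    push Not at hcon
    have h5 : ∀ x, S.ω w (x + S.ω u1 x • (w + v0) - S.ω (w + v0) x • u1) = 0 := by
      intro x
      refine (hcon _ ?_ ?_).1
      · rw [map_sub, map_add, map_smul, map_smul, S.alt, hu1, smul_zero, add_zero, smul_eq_mul, mul_one, sub_self]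
      · rw [map_sub, map_add, map_smul, map_smul, S.alt, hu1w1, smul_zero, sub_zero, smul_eq_mul, mul_neg, mul_one,
          add_neg_cancel]
    have h6 : w - S.ω w u1 • (w + v0) = 0 := by
      refine S.nondeg _ fun x => ?_
      have h7 := h5 x
      rw [map_sub, map_add, map_smul, map_smul, map_add, S.alt, hwv0, add_zero, smul_zero, add_zero, smul_eq_mul] at h7
      rw [map_sub, LinearMap.sub_apply, map_smul, LinearMap.smul_apply, smul_eq_mul, mul_comm]
      exact h7
    have h8 : S.ω (w - S.ω w u1 • (w + v0)) u = 0 := by rw [h6, map_zero, LinearMap.zero_apply]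
    rw [map_sub, LinearMap.sub_apply, map_smul, LinearMap.smul_apply, map_add, LinearMap.add_apply, hu, hv0u, add_zero,
      smul_eq_mul, mul_one, sub_eq_zero] at h8
    rw [← h8, one_smul, sub_add_cancel_left] at h6
    exact hv0 (neg_eq_zero.1 h6)
  -- `b`
  have hdec : ∀ x, x + S.ω u x • w - S.ω w x • u ∈ K := by
    intro x
    refine hK _ ?_ ?_
    · rw [map_sub, map_add, map_smul, map_smul, S.alt, hu, smul_zero, add_zero, smul_eq_mul, mul_one, sub_self]
    · rw [map_sub, map_add, map_smul, map_smul, S.alt, huw, smul_zero, sub_zero, smul_eq_mul, mul_neg, mul_one,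
        add_neg_cancel]
  have hv1K : v1 ∈ K := hK1 v1 hv11 hv12
  obtain ⟨b, hb⟩ : ∃ b, b = (- S.ω u v1) • w + S.ω w v1 • u := ⟨_, rfl⟩
  have hbK : b ∈ K := by
    have h5 := hKadd _ _ hv1K (hKsmul (-1) _ (hdec v1))
    have h6 : v1 + (-1 : F) • (v1 + S.ω u v1 • w - S.ω w v1 • u) = b := by
      rw [hb, neg_smul, neg_smul, one_smul]
      abel
    rwa [h6] at h5
  have hwb : S.ω w b = S.ω w v1 := by
    rw [hb, map_add, map_smul, map_smul, S.alt, hu, smul_zero, zero_add, smul_eq_mul, mul_one]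
  have hub : S.ω u b = S.ω u v1 := by
    rw [hb, map_add, map_smul, map_smul, S.alt, huw, smul_zero, add_zero, smul_eq_mul, mul_neg, mul_one, neg_neg]
  have hb0 : b ≠ 0 := by
    rintro rfl
    apply hv13
    rw [map_zero] at hwb hub
    exact ⟨hwb.symm, hub.symm⟩
  have hKperp : ∀ x, S.ω b x = 0 → x ∈ K := by
    intro x hx
    have hx1 : S.ω w v1 * S.ω u x = S.ω u v1 * S.ω w x := by
      rw [hb, map_add, LinearMap.add_apply, map_smul, map_smul, LinearMap.smul_apply, LinearMap.smul_apply,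
        smul_eq_mul, smul_eq_mul, neg_mul, neg_add_eq_zero] at hx
      exact hx.symm
    obtain ⟨t, ht1, ht2⟩ : ∃ t : F, S.ω w x = t * S.ω w v1 ∧ S.ω u x = t * S.ω u v1 := by
      by_cases h5 : S.ω w v1 = 0
      · have h6 : S.ω u v1 ≠ 0 := fun h => hv13 ⟨h5, h⟩
        refine ⟨S.ω u x * (S.ω u v1)⁻¹, ?_, by rw [mul_assoc, inv_mul_cancel₀ h6, mul_one]⟩
        rw [h5, zero_mul] at hx1
        rw [h5, mul_zero]
        exact (mul_eq_zero.1 hx1.symm).resolve_left h6
      · refine ⟨S.ω w x * (S.ω w v1)⁻¹, by rw [mul_assoc, inv_mul_cancel₀ h5, mul_one], ?_⟩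
        field_simp
        rw [mul_comm, hx1, mul_comm]
    have h6 := hKadd _ _ (hdec x) (hKsmul t _ hbK)
    have h7 : x + S.ω u x • w - S.ω w x • u + t • b = x := by
      rw [hb, ht1, ht2, smul_add, smul_smul, smul_smul, mul_neg, neg_smul]
      abel
    rwa [h7] at h6
  -- `ε = i b X c b`
  obtain ⟨b', hbb'⟩ := S.exists_pair hb0
  let ε : Module.End F V := (e : Module.End F V) - 1
  have hεa : ∀ x, ε x = (e : Module.End F V) x - x := fun x => rfl
  have h5 : ∀ x, ε x = ε (S.i b' (S.c b x)) :=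
    S.eq_comp_c hbb' fun v hv y => by rw [hεa, (hKperp v hv).1, sub_self]
  have h6 : ∀ x, ε x = - S.i b (S.c b' (ε x)) := fun x =>
    S.eq_i_of_perp hbb' fun v hv => by rw [hεa, map_sub, (hKperp v hv).2, sub_self]
  let X : Module.End F W' := -(S.c b' ∘ₗ ε ∘ₗ S.i b')
  have h7 : ∀ x, (e : Module.End F V) x = x + S.i b (X (S.c b x)) := by
    intro x
    have h8 : (e : Module.End F V) x = x + ε x := by rw [hεa]; abel
    rw [h8, h5, h6]
    show x + -S.i b (S.c b' (ε (S.i b' (S.c b x)))) = x + S.i b (-(S.c b' (ε (S.i b' (S.c b x)))))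
    rw [map_neg]
  obtain ⟨m, hm⟩ := hM.h1 b hb0 X e heM h7
  refine ⟨b, m, hb0, ext_unit fun x => ?_⟩
  rw [h7, S.tv_apply, hm, map_smul]

end Slot

end Cfsg.Agent.H874
end

-- part: H874/SlotTr
section
/-!
# Two-dimensional slots: sums over free orbits and the trace projection
-/

set_option autoImplicit false
set_option linter.unusedSimpArgs false
set_option linter.unusedVariables false
set_option linter.unusedSectionVars false

namespace Cfsg.Agent.H874

open Subgroup

/-- Sums over free orbits. -/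
theorem sum_eq_zero_of_free {X Y C : Type*} [DecidableEq X] [AddCommGroup Y] [AddGroup C] [Fintype C] (a : C → X → X)
    (h0 : ∀ x, a 0 x = x) (hadd : ∀ s t x, a (s + t) x = a s (a t x)) (f : X → Y)
    (hf : ∀ x, ∑ s, f (a s x) = 0) (N : Finset X) (hN : ∀ x ∈ N, ∀ s, a s x ∈ N)
    (hfree : ∀ x ∈ N, ∀ s, a s x = x → s = 0) : ∑ x ∈ N, f x = 0 := by
  classical
  induction N using Finset.strongInduction with
  | H N ih =>
    rcases N.eq_empty_or_nonempty with rfl | ⟨x, hx⟩
    · exact Finset.sum_empty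
    let O : Finset X := Finset.univ.image fun s => a s x
    have hO : O ⊆ N := by
      intro y hy
      obtain ⟨s, -, rfl⟩ := Finset.mem_image.1 hy
      exact hN x hx s
    have hinj : ∀ s t, a s x = a t x → s = t := by
      intro s t h
      have h1 : a (-t + s) x = x := by rw [hadd, h, ← hadd, neg_add_cancel, h0]
      exact (neg_add_eq_zero.1 (hfree x hx _ h1)).symm
    have hsum : ∑ y ∈ O, f y = 0 := by
      rw [Finset.sum_image (fun s _ t _ h => hinj s t h)]
      exact hf x
    rw [← Finset.sum_sdiff hO, hsum, add_zero]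
    refine ih _ ?_ ?_ ?_
    · refine Finset.sdiff_ssubset hO ⟨x, ?_⟩
      exact Finset.mem_image.2 ⟨0, Finset.mem_univ _, h0 x⟩
    · intro y hy s
      obtain ⟨hy1, hy2⟩ := Finset.mem_sdiff.1 hy
      refine Finset.mem_sdiff.2 ⟨hN y hy1 s, fun h => hy2 ?_⟩
      obtain ⟨t, -, ht⟩ := Finset.mem_image.1 h
      refine Finset.mem_image.2 ⟨-s + t, Finset.mem_univ _, ?_⟩
      rw [hadd, ht, ← hadd, neg_add_cancel, h0]
    · intro y hy s hs
      exact hfree y (Finset.mem_sdiff.1 hy).1 s hs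

/-- The trace of conjugation by the `1 + l δ`, `δ * δ = 0`, is zero for `q > 3`. -/
theorem sum_conj_eq_zero {F A : Type*} [Field F] [Fintype F] [Ring A] [Algebra F A] (hq : 3 < Fintype.card F) (δ y : A) :
    ∑ l : F, (1 + l • δ) * y * (1 - l • δ) = 0 := by
  have h0 : ∑ l : F, l ^ 0 = 0 := FiniteField.sum_pow_lt_card_sub_one F 0 (by omega)
  have h1 : ∑ l : F, l ^ 1 = 0 := FiniteField.sum_pow_lt_card_sub_one F 1 (by omega)
  have h2 : ∑ l : F, l ^ 2 = 0 := FiniteField.sum_pow_lt_card_sub_one F 2 (by omega)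
  have h3 : ∀ l : F, (1 + l • δ) * y * (1 - l • δ)
      = l ^ 0 • y + l ^ 1 • (δ * y - y * δ) - l ^ 2 • (δ * y * δ) := by
    intro l
    rw [pow_zero, one_smul, pow_one, pow_two]
    simp only [add_mul, mul_sub, sub_mul, one_mul, mul_one, smul_mul_assoc, mul_smul_comm, smul_sub, smul_add, smul_smul]
    abel
  simp only [h3]
  rw [Finset.sum_sub_distrib, Finset.sum_add_distrib, ← Finset.sum_smul, ← Finset.sum_smul, ← Finset.sum_smul, h0, h1,
    h2, zero_smul, zero_smul, zero_smul, add_zero, sub_zero]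

namespace Slot

variable {F W W' V : Type*} [Field F] [AddCommGroup W] [Module F W] [AddCommGroup W'] [Module F W']
    [AddCommGroup V] [Module F V] {S : Slot F W W' V}

/-- Conjugation of operators on `End V`. -/
def act (g : (Module.End F V)ˣ) (φ : Module.End F V →ₗ[F] Module.End F V) : Module.End F V →ₗ[F] Module.End F V where
  toFun x := (g : Module.End F V) * φ (((g⁻¹ : (Module.End F V)ˣ) : Module.End F V) * x * g) *
    ((g⁻¹ : (Module.End F V)ˣ) : Module.End F V)
  map_add' x y := by rw [mul_add, add_mul, map_add, mul_add, add_mul]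
  map_smul' l x := by
    rw [mul_smul_comm, smul_mul_assoc, map_smul, mul_smul_comm, smul_mul_assoc, RingHom.id_apply]

theorem act_apply (g : (Module.End F V)ˣ) (φ : Module.End F V →ₗ[F] Module.End F V) (x : Module.End F V) :
    act g φ x = (g : Module.End F V) * φ (((g⁻¹ : (Module.End F V)ˣ) : Module.End F V) * x * g) *
    ((g⁻¹ : (Module.End F V)ˣ) : Module.End F V) := rfl

theorem act_one (φ : Module.End F V →ₗ[F] Module.End F V) : act 1 φ = φ := by
  ext x : 1
  rw [act_apply, inv_one, Units.val_one, one_mul, mul_one, one_mul, mul_one]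

theorem act_mul (g h : (Module.End F V)ˣ) (φ : Module.End F V →ₗ[F] Module.End F V) :
    act (g * h) φ = act g (act h φ) := by
  ext x : 1
  simp only [act_apply, mul_inv_rev, Units.val_mul, mul_assoc]

theorem act_conj (g : (Module.End F V)ˣ) (φ : Module.End F V →ₗ[F] Module.End F V) (x : Module.End F V) :
    act g φ ((g : Module.End F V) * x * ((g⁻¹ : (Module.End F V)ˣ) : Module.End F V))
      = (g : Module.End F V) * φ x * ((g⁻¹ : (Module.End F V)ˣ) : Module.End F V) := by
  have h : ((g⁻¹ : (Module.End F V)ˣ) : Module.End F V) *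
      ((g : Module.End F V) * x * ((g⁻¹ : (Module.End F V)ˣ) : Module.End F V)) * g = x := by
    rw [mul_assoc, mul_assoc, mul_assoc, Units.inv_mul, mul_one, ← mul_assoc, Units.inv_mul, one_mul]
  rw [act_apply, h]

variable [FiniteDimensional F V] [FiniteDimensional F W']

theorem trace_mul_E (X : Module.End F V) (a b : W) :
    LinearMap.trace F V (X * S.E a b) = LinearMap.trace F W' (S.c b ∘ₗ X ∘ₗ S.i a) := by
  have h : X * S.E a b = (X ∘ₗ S.i a) ∘ₗ S.c b := rfl
  rw [h, LinearMap.trace_comp_comm']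

theorem trace_mul_Δ (X : Module.End F V) (a : W) :
    LinearMap.trace F V (X * S.Δ a) = LinearMap.trace F W' (S.c a ∘ₗ X ∘ₗ S.i a) := trace_mul_E X a a

theorem trace_Δ_co {Y : Module.End F V} (hY : S.IsCo Y) (b : W) : LinearMap.trace F V (S.Δ b * Y) = 0 := by
  rw [LinearMap.trace_mul_comm, trace_mul_Δ]
  obtain ⟨Z, hZ⟩ := hY
  have h : S.c b ∘ₗ Y ∘ₗ S.i b = 0 := by
    ext y
    rw [LinearMap.comp_apply, LinearMap.comp_apply, hZ, S.ci, S.alt, zero_smul, LinearMap.zero_apply]
  rw [h, map_zero]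

/-- `φ` is the projection on `A` orthogonal for the trace form. -/
structure IsPr (S : Slot F W W' V) (φ : Module.End F V →ₗ[F] Module.End F V) : Prop where
  op : ∀ x, S.IsOp (φ x)
  tr : ∀ x a, S.IsOp a → LinearMap.trace F V (φ x * a) = LinearMap.trace F V (x * a)

section Two

variable {w u : W} (hwu : S.ω w u = 1) (hW : ∀ x, x = S.ω w x • u - S.ω u x • w)

include hwu hW

theorem op_eq_zero (hn : (Module.finrank F W' : F) ≠ 0) {X : Module.End F V} (hX : S.IsOp X)
    (h : ∀ a, S.IsOp a → LinearMap.trace F V (X * a) = 0) : X = 0 := by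
  have huw := huw' hwu
  obtain ⟨α, β, γ, κ, rfl⟩ := eq_op hwu hW hX
  have hX1 : ∀ t, (α • S.E w w + β • S.E w u + γ • S.E u w + κ • S.E u u) (S.i w t)
      = - (β • S.i w t) - κ • S.i u t := by
    intro t
    simp only [LinearMap.add_apply, LinearMap.smul_apply, E_apply, S.ci, S.alt, huw, zero_smul, map_zero, smul_zero,
      neg_smul, one_smul, map_neg, smul_neg, map_sub, map_smul]
    abel
  have hX2 : ∀ t, (α • S.E w w + β • S.E w u + γ • S.E u w + κ • S.E u u) (S.i u t)
      = α • S.i w t + γ • S.i u t := by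
    intro t
    simp only [LinearMap.add_apply, LinearMap.smul_apply, E_apply, S.ci, S.alt, hwu, zero_smul, map_zero, smul_zero,
      neg_smul, one_smul, map_neg, smul_neg, map_add, map_smul]
    abel
  generalize hXX : α • S.E w w + β • S.E w u + γ • S.E u w + κ • S.E u u = X at *
  have key : ∀ (a b : W) (m : F), (∀ t, S.c b (X (S.i a t)) = m • t) → m = 0 := by
    intro a b m hm
    have h1 := h _ (IsOp.E (S := S) a b)
    rw [trace_mul_E] at h1
    have h3 : S.c b ∘ₗ X ∘ₗ S.i a = m • (1 : Module.End F W') := by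
      ext t
      rw [LinearMap.comp_apply, LinearMap.comp_apply, hm, LinearMap.smul_apply, Module.End.one_apply]
    rw [h3, map_smul, LinearMap.trace_one, smul_eq_mul] at h1
    exact (mul_eq_zero.1 h1).resolve_right hn
  have hβ : β = 0 := by
    refine key w u β fun t => ?_
    rw [hX1, map_sub, map_neg, map_smul, map_smul, S.ci, S.ci, S.alt, huw, zero_smul, smul_zero, sub_zero, neg_smul,
      one_smul, smul_neg, neg_neg]
  have hκ : κ = 0 := by
    rw [← neg_eq_zero]
    refine key w w _ fun t => ?_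
    rw [hX1, map_sub, map_neg, map_smul, map_smul, S.ci, S.ci, S.alt, hwu, zero_smul, smul_zero, neg_zero, zero_sub,
      one_smul, neg_smul]
  have hα : α = 0 := by
    rw [← neg_eq_zero]
    refine key u u _ fun t => ?_
    rw [hX2, map_add, map_smul, map_smul, S.ci, S.ci, S.alt, huw, zero_smul, smul_zero, add_zero, neg_smul,
      one_smul, smul_neg, neg_smul]
  have hγ : γ = 0 := by
    refine key u w _ fun t => ?_
    rw [hX2, map_add, map_smul, map_smul, S.ci, S.ci, S.alt, hwu, zero_smul, smul_zero, zero_add, one_smul]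
  rw [← hXX, hα, hβ, hγ, hκ, zero_smul, zero_smul, zero_smul, zero_smul, add_zero, add_zero, add_zero]

theorem exists_isPr (hn : (Module.finrank F W' : F) ≠ 0) : ∃ π, S.IsPr π := by
  have huw := huw' hwu
  let t : W → W → (Module.End F V →ₗ[F] F) := fun a b =>
    { toFun := fun X => LinearMap.trace F W' (S.c b ∘ₗ X ∘ₗ S.i a)
      map_add' := fun X Y => by rw [LinearMap.add_comp, LinearMap.comp_add, map_add]
      map_smul' := fun l X => by rw [LinearMap.smul_comp, LinearMap.comp_smul, map_smul, RingHom.id_apply] }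
  let ν : F := (Module.finrank F W' : F)⁻¹
  let π : Module.End F V →ₗ[F] Module.End F V :=
    ν • ((t u w).smulRight (S.E u w) - (t w w).smulRight (S.E u u) - (t u u).smulRight (S.E w w)
      + (t w u).smulRight (S.E w u))
  have hπ : ∀ X, π X = ν • (t u w X • S.E u w - t w w X • S.E u u - t u u X • S.E w w + t w u X • S.E w u) := by
    intro X
    rfl
  have hop : ∀ x, S.IsOp (π x) := by
    intro x
    rw [hπ]
    exact ((((IsOp.E u w).smul _).sub ((IsOp.E u u).smul _)).sub ((IsOp.E w w).smul _)).add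
      ((IsOp.E w u).smul _) |>.smul _
  have hν : ν * (Module.finrank F W' : F) = 1 := inv_mul_cancel₀ hn
  have htr : ∀ x (a b : W) (m : F), (∀ y, S.c b (π x (S.i a y)) = (ν * m) • y) →
      LinearMap.trace F V (π x * S.E a b) = m := by
    intro x a b m h
    rw [trace_mul_E]
    have h3 : S.c b ∘ₗ π x ∘ₗ S.i a = (ν * m) • (1 : Module.End F W') := by
      ext t
      rw [LinearMap.comp_apply, LinearMap.comp_apply, h, LinearMap.smul_apply, Module.End.one_apply]
    rw [h3, map_smul, LinearMap.trace_one, smul_eq_mul, mul_assoc, mul_comm m, ← mul_assoc, hν, one_mul]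
  refine ⟨π, hop, fun x a ha => ?_⟩
  obtain ⟨α, β, γ, κ, rfl⟩ := eq_op hwu hW ha
  have k1 : LinearMap.trace F V (π x * S.E w w) = LinearMap.trace F V (x * S.E w w) := by
    rw [trace_mul_E x]
    refine htr x w w _ fun y => ?_
    show _ = (ν * t w w x) • y
    rw [hπ]
    simp only [LinearMap.add_apply, LinearMap.sub_apply, LinearMap.smul_apply, E_apply, S.ci, S.alt, huw, hwu,
      zero_smul, map_zero, smul_zero, neg_smul, one_smul, map_neg, smul_neg, map_sub, map_smul, map_add, sub_zero,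
      zero_sub, neg_neg, add_zero, zero_add, neg_zero, smul_smul]
  have k2 : LinearMap.trace F V (π x * S.E w u) = LinearMap.trace F V (x * S.E w u) := by
    rw [trace_mul_E x]
    refine htr x w u _ fun y => ?_
    show _ = (ν * t w u x) • y
    rw [hπ]
    simp only [LinearMap.add_apply, LinearMap.sub_apply, LinearMap.smul_apply, E_apply, S.ci, S.alt, huw, hwu,
      zero_smul, map_zero, smul_zero, neg_smul, one_smul, map_neg, smul_neg, map_sub, map_smul, map_add, sub_zero,
      zero_sub, neg_neg, add_zero, zero_add, neg_zero, smul_smul]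
  have k3 : LinearMap.trace F V (π x * S.E u w) = LinearMap.trace F V (x * S.E u w) := by
    rw [trace_mul_E x]
    refine htr x u w _ fun y => ?_
    show _ = (ν * t u w x) • y
    rw [hπ]
    simp only [LinearMap.add_apply, LinearMap.sub_apply, LinearMap.smul_apply, E_apply, S.ci, S.alt, huw, hwu,
      zero_smul, map_zero, smul_zero, neg_smul, one_smul, map_neg, smul_neg, map_sub, map_smul, map_add, sub_zero,
      zero_sub, neg_neg, add_zero, zero_add, neg_zero, smul_smul]
  have k4 : LinearMap.trace F V (π x * S.E u u) = LinearMap.trace F V (x * S.E u u) := by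
    rw [trace_mul_E x]
    refine htr x u u _ fun y => ?_
    show _ = (ν * t u u x) • y
    rw [hπ]
    simp only [LinearMap.add_apply, LinearMap.sub_apply, LinearMap.smul_apply, E_apply, S.ci, S.alt, huw, hwu,
      zero_smul, map_zero, smul_zero, neg_smul, one_smul, map_neg, smul_neg, map_sub, map_smul, map_add, sub_zero,
      zero_sub, neg_neg, add_zero, zero_add, neg_zero, smul_smul]
  simp only [mul_add, mul_smul_comm, map_add, map_smul, k1, k2, k3, k4]

theorem IsPr.unique (hn : (Module.finrank F W' : F) ≠ 0) {φ ψ : Module.End F V →ₗ[F] Module.End F V} (h1 : S.IsPr φ)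
    (h2 : S.IsPr ψ) : φ = ψ := by
  ext x : 1
  rw [← sub_eq_zero]
  refine op_eq_zero hwu hW hn ((h1.op x).sub (h2.op x)) fun a ha => ?_
  rw [sub_mul, map_sub, h1.tr x a ha, h2.tr x a ha, sub_self]

theorem IsPr.apply_op (hn : (Module.finrank F W' : F) ≠ 0) {φ : Module.End F V →ₗ[F] Module.End F V} (h1 : S.IsPr φ)
    {X : Module.End F V} (hX : S.IsOp X) : φ X = X := by
  rw [← sub_eq_zero]
  refine op_eq_zero hwu hW hn ((h1.op X).sub hX) fun a ha => ?_
  rw [sub_mul, map_sub, h1.tr X a ha, sub_self]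

theorem IsPr.apply_zero (hn : (Module.finrank F W' : F) ≠ 0) {φ : Module.End F V →ₗ[F] Module.End F V} (h1 : S.IsPr φ)
    {X : Module.End F V} (hX : ∀ a, S.IsOp a → LinearMap.trace F V (X * a) = 0) : φ X = 0 :=
  op_eq_zero hwu hW hn (h1.op X) fun a ha => by rw [h1.tr X a ha, hX a ha]

theorem IsPr.act_eq (hn : (Module.finrank F W' : F) ≠ 0) {φ : Module.End F V →ₗ[F] Module.End F V} (h1 : S.IsPr φ)
    {g : (Module.End F V)ˣ}
    (hg : ∀ X, S.IsOp X → S.IsOp ((g : Module.End F V) * X * ((g⁻¹ : (Module.End F V)ˣ) : Module.End F V)))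
    (hg' : ∀ X, S.IsOp X → S.IsOp (((g⁻¹ : (Module.End F V)ˣ) : Module.End F V) * X * (g : Module.End F V))) :
    act g φ = φ := by
  refine IsPr.unique hwu hW hn ⟨fun x => hg _ (h1.op _), fun x a ha => ?_⟩ h1
  rw [act_apply]
  have e1 : LinearMap.trace F V ((g : Module.End F V) * φ (((g⁻¹ : (Module.End F V)ˣ) : Module.End F V) * x * g) *
      ((g⁻¹ : (Module.End F V)ˣ) : Module.End F V) * a)
      = LinearMap.trace F V (φ (((g⁻¹ : (Module.End F V)ˣ) : Module.End F V) * x * g) *
        (((g⁻¹ : (Module.End F V)ˣ) : Module.End F V) * a * g)) := by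
    rw [mul_assoc, mul_assoc, LinearMap.trace_mul_comm, mul_assoc]
  have e2 : LinearMap.trace F V ((((g⁻¹ : (Module.End F V)ˣ) : Module.End F V) * x * g) *
        (((g⁻¹ : (Module.End F V)ˣ) : Module.End F V) * a * g)) = LinearMap.trace F V (x * a) := by
    have e3 : (((g⁻¹ : (Module.End F V)ˣ) : Module.End F V) * x * g) *
        (((g⁻¹ : (Module.End F V)ˣ) : Module.End F V) * a * g)
        = ((g⁻¹ : (Module.End F V)ˣ) : Module.End F V) * (x * a * g) := by
      rw [mul_assoc, ← mul_assoc (g : Module.End F V), ← mul_assoc (g : Module.End F V), Units.mul_inv, one_mul]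
      simp only [mul_assoc]
    rw [e3, LinearMap.trace_mul_comm, mul_assoc, mul_assoc, Units.mul_inv, mul_one]
  rw [e1, h1.tr _ _ (hg' a ha), e2]

end Two

end Slot

end Cfsg.Agent.H874
end

-- part: H874/SlotK
section
/-!
# The slot lemma for `dim W = 2`, `q ≥ 5` odd
-/

set_option autoImplicit false
set_option linter.unusedSimpArgs false
set_option linter.unusedVariables false
set_option linter.unusedSectionVars false

namespace Cfsg.Agent.H874

open Subgroup

namespace Slot

variable {F W W' V : Type*} [Field F] [AddCommGroup W] [Module F W] [AddCommGroup W'] [Module F W']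
    [AddCommGroup V] [Module F V] {S : Slot F W W' V}

/-- The torus element of a hyperbolic pair. -/
theorem exists_torus {M : Subgroup (Module.End F V)ˣ} (htv : ∀ w l, S.tv w l ∈ M) {w u : W} (hwu : S.ω w u = 1)
    {a : F} (ha : a ≠ 0) : ∃ h ∈ M, (∀ y, (h : Module.End F V) (S.i w y) = a • S.i w y) ∧
      ∀ y, (h : Module.End F V) (S.i u y) = a⁻¹ • S.i u y := by
  have huw : S.ω u w = -1 := by rw [S.skew, hwu]
  let n : F → (Module.End F V)ˣ := fun b => S.tv w b * S.tv u b⁻¹ * S.tv w b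
  have hn : ∀ b : F, b ≠ 0 → (∀ y, (n b : Module.End F V) (S.i w y) = - (b⁻¹ • S.i u y)) ∧
      ∀ y, (n b : Module.End F V) (S.i u y) = b • S.i w y := by
    intro b hb
    constructor
    · intro y
      show ((S.tv w b * S.tv u b⁻¹ * S.tv w b : (Module.End F V)ˣ) : Module.End F V) (S.i w y) = _
      simp only [Units.val_mul, Module.End.mul_apply, S.tv_apply, S.ci, S.alt, hwu, huw, zero_smul, one_smul, neg_smul,
        map_zero, map_neg, map_add, map_smul, smul_zero, smul_neg, smul_add, add_zero, neg_neg]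
      simp only [smul_smul, mul_inv_cancel₀ hb, one_smul]
      abel
    · intro y
      show ((S.tv w b * S.tv u b⁻¹ * S.tv w b : (Module.End F V)ˣ) : Module.End F V) (S.i u y) = _
      simp only [Units.val_mul, Module.End.mul_apply, S.tv_apply, S.ci, S.alt, hwu, huw, zero_smul, one_smul, neg_smul,
        map_zero, map_neg, map_add, map_smul, smul_zero, smul_neg, smul_add, add_zero, zero_add, neg_neg]
      simp only [smul_smul, mul_inv_cancel₀ hb, inv_mul_cancel₀ hb, one_smul, mul_one]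
      abel
  have hnM : ∀ b, n b ∈ M := fun b => M.mul_mem (M.mul_mem (htv _ _) (htv _ _)) (htv _ _)
  refine ⟨n a * n (-1), M.mul_mem (hnM _) (hnM _), fun y => ?_, fun y => ?_⟩
  · rw [Units.val_mul, Module.End.mul_apply, (hn (-1) (by norm_num)).1, inv_neg, inv_one, neg_smul, one_smul, neg_neg,
      (hn a ha).2]
  · rw [Units.val_mul, Module.End.mul_apply, (hn (-1) (by norm_num)).2, neg_smul, one_smul, map_neg,
      (hn a ha).1, neg_neg]

theorem conj_tv_Δ (x a : W) (l : F) :
    ((S.tv x l : (Module.End F V)ˣ) : Module.End F V) * S.Δ a * (((S.tv x l)⁻¹ : (Module.End F V)ˣ) : Module.End F V)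
      = S.Δ (a + (l * S.ω x a) • x) := by
  ext v
  simp only [Module.End.mul_apply, S.tv_apply, S.tv_inv_apply, S.Δ_apply, map_sub, map_add, map_smul,
    LinearMap.add_apply, LinearMap.smul_apply, S.ci, S.skew a x]
  module

/-- Transitivity on nonzero vectors, `dim W = 2`. -/
theorem exists_trans {M : Subgroup (Module.End F V)ˣ} (htv : ∀ w l, S.tv w l ∈ M)
    (hW : ∀ w u, S.ω w u = 1 → ∀ x, x = S.ω w x • u - S.ω u x • w) {w b : W} (hw : w ≠ 0) (hb : b ≠ 0) :
    ∃ s ∈ M, S.IsOp (s : Module.End F V) ∧ S.IsOp ((s⁻¹ : (Module.End F V)ˣ) : Module.End F V) ∧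
      (s : Module.End F V) * S.Δ w * ((s⁻¹ : (Module.End F V)ˣ) : Module.End F V) = S.Δ b := by
  have key : ∀ w b : W, S.ω w b ≠ 0 → ∃ s ∈ M, S.IsOp (s : Module.End F V) ∧
      S.IsOp ((s⁻¹ : (Module.End F V)ˣ) : Module.End F V) ∧
      (s : Module.End F V) * S.Δ w * ((s⁻¹ : (Module.End F V)ˣ) : Module.End F V) = S.Δ b := by
    intro w b h
    refine ⟨S.tv (b - w) (-(S.ω w b)⁻¹), htv _ _, IsOp.tv _ _, IsOp.tv_inv _ _, ?_⟩
    rw [conj_tv_Δ]
    congr 1
    rw [map_sub, LinearMap.sub_apply, S.alt, sub_zero, S.skew b w, neg_mul_neg, inv_mul_cancel₀ h, one_smul]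
    abel
  by_cases h : S.ω w b = 0
  · obtain ⟨u, hu⟩ := S.exists_pair hw
    have hub : S.ω u b ≠ 0 := by
      intro h1
      apply hb
      rw [hW w u hu b, h, h1, zero_smul, zero_smul, sub_zero]
    obtain ⟨s, hs1, hs2, hs3, hs4⟩ := key w u (by rw [hu]; exact one_ne_zero)
    obtain ⟨s', hs1', hs2', hs3', hs4'⟩ := key u b hub
    refine ⟨s' * s, M.mul_mem hs1' hs1, ?_, ?_, ?_⟩
    · rw [Units.val_mul]; exact hs2'.mul hs2
    · rw [mul_inv_rev, Units.val_mul]; exact hs3.mul hs3'
    · rw [← hs4', ← hs4, mul_inv_rev, Units.val_mul, Units.val_mul]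
      simp only [mul_assoc]
  · exact key w b h

section Two

variable (hW : ∀ w u, S.ω w u = 1 → ∀ x, x = S.ω w x • u - S.ω u x • w)

include hW

theorem span_op (P : Module.End F V → Prop) (h2 : (2 : F) ≠ 0) {w u : W} (hwu : S.ω w u = 1)
    (h1 : P 1) (hΔ : ∀ b, b ≠ 0 → P (S.Δ b))
    (hadd : ∀ X Y, P X → P Y → P (X + Y)) (hsmul : ∀ (l : F) X, P X → P (l • X)) {X : Module.End F V}
    (hX : S.IsOp X) : P X := by
  have huw := huw' hwu
  obtain ⟨α, β, γ, κ, rfl⟩ := eq_op hwu (hW w u hwu) hX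
  have hw0 := wu_ne hwu
  have hu0 : u ≠ 0 := by
    rintro rfl
    rw [map_zero] at hwu
    exact zero_ne_one hwu
  have hwu0 : w + u ≠ 0 := by
    intro h
    have h5 : S.ω (w + u) u = 0 := by rw [h, map_zero, LinearMap.zero_apply]
    rw [map_add, LinearMap.add_apply, hwu, S.alt, add_zero] at h5
    exact one_ne_zero h5
  have e1 : S.E u w - S.E w u = 1 := by
    ext x
    rw [Module.End.one_apply]
    exact (decomp hwu (hW w u hwu) x).symm
  have e2 : S.E u w + S.E w u = S.Δ (w + u) + (-1 : F) • S.Δ w + (-1 : F) • S.Δ u := by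
    ext x
    simp only [LinearMap.add_apply, LinearMap.smul_apply, LinearMap.neg_apply, E_apply, S.Δ_apply, map_add, neg_smul,
      one_smul]
    abel
  have hS : P (S.E u w + S.E w u) := by
    rw [e2]
    exact hadd _ _ (hadd _ _ (hΔ _ hwu0) (hsmul _ _ (hΔ _ hw0))) (hsmul _ _ (hΔ _ hu0))
  have p1 : P (S.E u w) := by
    have h3 : S.E u w = (2⁻¹ : F) • ((S.E u w + S.E w u) + 1) := by
      rw [← e1]
      have h4 : S.E u w + S.E w u + (S.E u w - S.E w u) = (2 : F) • S.E u w := by rw [two_smul]; abel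
      rw [h4, smul_smul, inv_mul_cancel₀ h2, one_smul]
    rw [h3]
    exact hsmul _ _ (hadd _ _ hS h1)
  have p2 : P (S.E w u) := by
    have h3 : S.E w u = S.E u w + (-1 : F) • 1 := by rw [neg_smul, one_smul, ← e1]; abel
    rw [h3]
    exact hadd _ _ p1 (hsmul _ _ h1)
  exact hadd _ _ (hadd _ _ (hadd _ _ (hsmul _ _ (hΔ w hw0)) (hsmul _ _ p2)) (hsmul _ _ p1)) (hsmul _ _ (hΔ u hu0))

theorem span_all (P : Module.End F V → Prop) (h2 : (2 : F) ≠ 0) {w u : W} (hwu : S.ω w u = 1)
    (h1 : ∀ X, S.IsCo X → P X) (hΔ : ∀ b, b ≠ 0 → ∀ Z : Module.End F W', P (S.i b ∘ₗ Z ∘ₗ S.c b))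
    (hadd : ∀ X Y, P X → P Y → P (X + Y)) (hsmul : ∀ (l : F) X, P X → P (l • X)) (X : Module.End F V) : P X := by
  have huw := huw' hwu
  have hw0 := wu_ne hwu
  have hu0 : u ≠ 0 := by
    rintro rfl
    rw [map_zero] at hwu
    exact zero_ne_one hwu
  have hwu0 : w + u ≠ 0 := by
    intro h
    have h5 : S.ω (w + u) u = 0 := by rw [h, map_zero, LinearMap.zero_apply]
    rw [map_add, LinearMap.add_apply, hwu, S.alt, add_zero] at h5
    exact one_ne_zero h5
  have e2 : ∀ Z : Module.End F W', S.i u ∘ₗ Z ∘ₗ S.c w + S.i w ∘ₗ Z ∘ₗ S.c u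
      = S.i (w + u) ∘ₗ Z ∘ₗ S.c (w + u) + (-1 : F) • (S.i w ∘ₗ Z ∘ₗ S.c w) + (-1 : F) • (S.i u ∘ₗ Z ∘ₗ S.c u) := by
    intro Z
    ext x
    simp only [LinearMap.add_apply, LinearMap.smul_apply, LinearMap.neg_apply, LinearMap.comp_apply, map_add, neg_smul,
      one_smul]
    abel
  have hS : ∀ Z : Module.End F W', P (S.i u ∘ₗ Z ∘ₗ S.c w + S.i w ∘ₗ Z ∘ₗ S.c u) := by
    intro Z
    rw [e2]
    exact hadd _ _ (hadd _ _ (hΔ _ hwu0 Z) (hsmul _ _ (hΔ _ hw0 Z))) (hsmul _ _ (hΔ _ hu0 Z))
  have hO : ∀ Z : Module.End F W', P (S.i u ∘ₗ Z ∘ₗ S.c w - S.i w ∘ₗ Z ∘ₗ S.c u) :=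
    fun Z => h1 _ (isCo_one hwu (hW w u hwu) Z)
  have p1 : ∀ Z : Module.End F W', P (S.i u ∘ₗ Z ∘ₗ S.c w) := by
    intro Z
    have h3 : S.i u ∘ₗ Z ∘ₗ S.c w = (2⁻¹ : F) • ((S.i u ∘ₗ Z ∘ₗ S.c w + S.i w ∘ₗ Z ∘ₗ S.c u)
        + (S.i u ∘ₗ Z ∘ₗ S.c w - S.i w ∘ₗ Z ∘ₗ S.c u)) := by
      have h4 : (S.i u ∘ₗ Z ∘ₗ S.c w + S.i w ∘ₗ Z ∘ₗ S.c u)
        + (S.i u ∘ₗ Z ∘ₗ S.c w - S.i w ∘ₗ Z ∘ₗ S.c u) = (2 : F) • (S.i u ∘ₗ Z ∘ₗ S.c w) := by rw [two_smul]; abel
      rw [h4, smul_smul, inv_mul_cancel₀ h2, one_smul]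
    rw [h3]
    exact hsmul _ _ (hadd _ _ (hS Z) (hO Z))
  have p2 : ∀ Z : Module.End F W', P (S.i w ∘ₗ Z ∘ₗ S.c u) := by
    intro Z
    have h3 : S.i w ∘ₗ Z ∘ₗ S.c u = S.i u ∘ₗ Z ∘ₗ S.c w + (-1 : F) • (S.i u ∘ₗ Z ∘ₗ S.c w - S.i w ∘ₗ Z ∘ₗ S.c u) := by
      rw [neg_smul, one_smul]; abel
    rw [h3]
    exact hadd _ _ (p1 Z) (hsmul _ _ (hO Z))
  have h3 : X = (S.i u ∘ₗ (S.c w ∘ₗ X ∘ₗ S.i u) ∘ₗ S.c w + (-1 : F) • (S.i u ∘ₗ (S.c w ∘ₗ X ∘ₗ S.i w) ∘ₗ S.c u))
      + ((-1 : F) • (S.i w ∘ₗ (S.c u ∘ₗ X ∘ₗ S.i u) ∘ₗ S.c w) + S.i w ∘ₗ (S.c u ∘ₗ X ∘ₗ S.i w) ∘ₗ S.c u) := by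
    ext x
    simp only [LinearMap.add_apply, LinearMap.smul_apply, LinearMap.neg_apply, LinearMap.comp_apply, neg_smul, one_smul]
    nth_rewrite 1 [decomp hwu (hW w u hwu) (X x)]
    nth_rewrite 1 [decomp hwu (hW w u hwu) x]
    nth_rewrite 3 [decomp hwu (hW w u hwu) x]
    simp only [map_sub, LinearMap.sub_apply]
    abel
  rw [h3]
  exact hadd _ _ (hadd _ _ (p1 _) (hsmul _ _ (hΔ _ hu0 _))) (hadd _ _ (hsmul _ _ (hΔ _ hw0 _)) (p2 _))

/-- A quadratic element of `M` commuting with `Δ w` is in the root group or in the commutant of the slot. -/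
theorem Good.comm_Δ [FiniteDimensional F V] [Nontrivial W'] {M : Subgroup (Module.End F V)ˣ} (hM : S.Good M) (h2 : (2 : F) ≠ 0)
    {a : F} (ha : a ≠ 0) (ha2 : a * a ≠ 1) {w : W} (hw : w ≠ 0) {e : (Module.End F V)ˣ} (he : e ∈ M)
    (hsq : ∀ x, (e : Module.End F V) ((e : Module.End F V) x - x) = (e : Module.End F V) x - x)
    (hc : (e : Module.End F V) * S.Δ w = S.Δ w * e) : (∃ l, e = S.tv w l) ∨ S.IsCo (e : Module.End F V) := by
  obtain ⟨u, hwu⟩ := S.exists_pair hw
  have huw := huw' hwu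
  have hW' := hW w u hwu
  have hc' : ∀ x, (e : Module.End F V) (S.i w (S.c w x)) = S.i w (S.c w ((e : Module.End F V) x)) :=
    fun x => LinearMap.congr_fun hc x
  let ζ : Module.End F W' := S.c w ∘ₗ (e : Module.End F V) ∘ₗ S.i u
  let η : Module.End F W' := S.c u ∘ₗ (e : Module.End F V) ∘ₗ S.i u
  let ζ' : Module.End F W' := S.c w ∘ₗ ((e⁻¹ : (Module.End F V)ˣ) : Module.End F V) ∘ₗ S.i u
  have hew : ∀ y, (e : Module.End F V) (S.i w y) = S.i w (ζ y) := by
    intro y
    have h3 := hc' (S.i u y)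
    rwa [S.ci, hwu, one_smul] at h3
  have heu : ∀ y, (e : Module.End F V) (S.i u y) = S.i u (ζ y) - S.i w (η y) := fun y =>
    decomp hwu hW' _
  have hc2 : ∀ x, ((e⁻¹ : (Module.End F V)ˣ) : Module.End F V) (S.i w (S.c w x))
      = S.i w (S.c w (((e⁻¹ : (Module.End F V)ˣ) : Module.End F V) x)) := by
    intro x
    have h3 := hc' (((e⁻¹ : (Module.End F V)ˣ) : Module.End F V) x)
    rw [apply_inv] at h3
    rw [← h3, inv_apply]
  have heiw : ∀ y, ((e⁻¹ : (Module.End F V)ˣ) : Module.End F V) (S.i w y) = S.i w (ζ' y) := by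
    intro y
    have h3 := hc2 (S.i u y)
    rwa [S.ci, hwu, one_smul] at h3
  have hζζ' : ∀ y, ζ (ζ' y) = y := by
    intro y
    refine S.i_injective hw ?_
    rw [← hew, ← heiw, apply_inv]
  obtain ⟨h, hh, hhw, hhu⟩ := exists_torus hM.tv_mem hwu ha
  have hhiw : ∀ y, ((h⁻¹ : (Module.End F V)ˣ) : Module.End F V) (S.i w y) = a⁻¹ • S.i w y := by
    intro y
    have h3 := inv_apply h (a⁻¹ • S.i w y)
    rwa [map_smul, hhw, smul_smul, inv_mul_cancel₀ ha, one_smul] at h3
  have hhiu : ∀ y, ((h⁻¹ : (Module.End F V)ˣ) : Module.End F V) (S.i u y) = a • S.i u y := by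
    intro y
    have h3 := inv_apply h (a • S.i u y)
    rwa [map_smul, hhu, smul_smul, mul_inv_cancel₀ ha, one_smul] at h3
  obtain ⟨l, hl⟩ := hM.h1 w hw (-((a * a - 1) • (ζ' ∘ₗ η))) (e⁻¹ * (h * e * h⁻¹))
    (M.mul_mem (M.inv_mem he) (M.mul_mem (M.mul_mem hh he) (M.inv_mem hh))) (by
      intro x
      nth_rewrite 1 2 [decomp hwu hW' x]
      generalize S.c w x = y1
      generalize S.c u x = y2
      have k1 : ((e⁻¹ * (h * e * h⁻¹) : (Module.End F V)ˣ) : Module.End F V) (S.i w y2) = S.i w y2 := by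
        simp only [Units.val_mul, Module.End.mul_apply]
        rw [hhiw, map_smul, hew, map_smul, hhw, smul_smul, inv_mul_cancel₀ ha, one_smul, ← hew, inv_apply]
      have k2 : ((e⁻¹ * (h * e * h⁻¹) : (Module.End F V)ˣ) : Module.End F V) (S.i u y1)
          = S.i u y1 - (a * a - 1) • S.i w (ζ' (η y1)) := by
        simp only [Units.val_mul, Module.End.mul_apply]
        have k3 : (h : Module.End F V) ((e : Module.End F V) (((h⁻¹ : (Module.End F V)ˣ) : Module.End F V) (S.i u y1)))
            = (e : Module.End F V) (S.i u y1) - (a * a - 1) • S.i w (η y1) := by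
          rw [hhiu, map_smul, heu, map_smul, map_sub, hhu, hhw, smul_sub, smul_smul, smul_smul, mul_inv_cancel₀ ha,
            one_smul, sub_smul, one_smul]
          abel
        rw [k3, map_sub, inv_apply, map_smul, heiw]
      rw [map_sub, k1, k2]
      simp only [LinearMap.neg_apply, LinearMap.smul_apply, LinearMap.comp_apply, map_neg, map_smul]
      abel)
  have ha3 : a * a - 1 ≠ 0 := sub_ne_zero.2 ha2
  obtain ⟨m, hm⟩ : ∃ m : F, ∀ y, η y = m • ζ y := by
    refine ⟨-((a * a - 1)⁻¹ * l), fun y => ?_⟩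
    have h3 : (a * a - 1) • ζ' (η y) = - (l • y) := by
      rw [← hl]
      simp only [LinearMap.neg_apply, LinearMap.smul_apply, LinearMap.comp_apply, neg_neg]
    have h4 : ζ' (η y) = -((a * a - 1)⁻¹ * l) • y := by
      rw [neg_smul, mul_smul, ← smul_neg, ← h3, smul_smul, inv_mul_cancel₀ ha3, one_smul]
    rw [← hζζ' (η y), h4, map_smul]
  have q1 : ∀ y, ζ (ζ y - y) = ζ y - y := by
    intro y
    refine S.i_injective hw ?_
    have h3 := hsq (S.i w y)
    rw [hew, ← map_sub, hew] at h3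
    exact h3
  have q2 : ∀ y, m • (ζ y - y) = 0 := by
    intro y
    have h3 := congrArg (S.c u) (hsq (S.i u y))
    rw [heu, hm] at h3
    have h4 : S.i u (ζ y) - S.i w (m • ζ y) - S.i u y = S.i u (ζ y - y) - m • S.i w (ζ y) := by
      rw [map_sub, map_smul]; abel
    rw [h4, map_sub, map_smul, heu, hm, hew, q1] at h3
    simp only [map_sub, map_smul, S.ci, S.alt, huw, zero_smul, zero_sub, neg_smul, one_smul, smul_neg, neg_neg,
      sub_neg_eq_add] at h3
    -- m (ζ y - y) + m ζ ζ y = m ζ y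
    have h5 : ζ (ζ y) = ζ y + ζ y - y := by
      have := q1 y
      rw [map_sub, sub_eq_iff_eq_add] at this
      rw [this]; abel
    rw [h5] at h3
    have h6 : (2 : F) • (m • (ζ y - y)) = 0 := by
      rw [← sub_eq_zero.2 h3]
      module
    exact (smul_eq_zero.1 h6).resolve_left h2
  by_cases hm0 : m = 0
  · right
    have h3 : (e : Module.End F V) = S.i u ∘ₗ ζ ∘ₗ S.c w - S.i w ∘ₗ ζ ∘ₗ S.c u := by
      refine ext_wu hwu hW' (fun y => ?_) (fun y => ?_)
      · rw [hew]
        simp only [LinearMap.sub_apply, LinearMap.comp_apply, S.ci, S.alt, huw, zero_smul, map_zero, neg_smul, one_smul,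
          map_neg, zero_sub, neg_neg]
      · rw [heu, hm, hm0, zero_smul, map_zero, sub_zero]
        simp only [LinearMap.sub_apply, LinearMap.comp_apply, S.ci, S.alt, hwu, zero_smul, map_zero, neg_smul, one_smul,
          map_neg, sub_zero, neg_neg]
    rw [h3]
    exact isCo_one hwu hW' ζ
  · left
    have h3 : ∀ y, ζ y = y := fun y => sub_eq_zero.1 ((smul_eq_zero.1 (q2 y)).resolve_left hm0)
    refine ⟨-m, Units.ext ?_⟩
    refine ext_wu hwu hW' (fun y => ?_) (fun y => ?_)
    · rw [hew, S.tv_apply, S.ci, S.alt, zero_smul, map_zero, smul_zero, add_zero, h3]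
    · rw [heu, S.tv_apply, S.ci, hwu, one_smul, hm, h3, map_smul, neg_smul, sub_eq_add_neg]

end Two

end Slot

end Cfsg.Agent.H874
end

-- part: H874/SlotKM
section
/-!
# The slot lemma for `dim W = 2`, `q ≥ 5` odd: the main argument
-/

set_option autoImplicit false
set_option linter.unusedSimpArgs false
set_option linter.unusedVariables false
set_option linter.unusedSectionVars false

namespace Cfsg.Agent.H874

open Subgroup

namespace Slot

variable {F W W' V : Type*} [Field F] [AddCommGroup W] [Module F W] [AddCommGroup W'] [Module F W']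
    [AddCommGroup V] [Module F V] {S : Slot F W W' V}

theorem IsCo.smul (l : F) {X : Module.End F V} (hX : S.IsCo X) : S.IsCo (l • X) := by
  obtain ⟨Z, hZ⟩ := hX
  exact ⟨l • Z, fun w y => by rw [LinearMap.smul_apply, hZ, LinearMap.smul_apply, map_smul]⟩

theorem IsCo.sub {X Y : Module.End F V} (hX : S.IsCo X) (hY : S.IsCo Y) : S.IsCo (X - Y) := by
  have h := hX.add (hY.smul (-1))
  rwa [neg_smul, one_smul, ← sub_eq_add_neg] at h

theorem IsCo.one : S.IsCo 1 := ⟨1, fun w y => rfl⟩

theorem IsCo.sum {ι : Type*} (s : Finset ι) (f : ι → Module.End F V) (hf : ∀ i ∈ s, S.IsCo (f i)) :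
    S.IsCo (∑ i ∈ s, f i) := by
  classical
  induction s using Finset.induction_on with
  | empty => rw [Finset.sum_empty]; exact IsCo.zero
  | insert a s ha ih =>
    rw [Finset.sum_insert ha]
    exact (hf a (Finset.mem_insert_self _ _)).add (ih fun i hi => hf i (Finset.mem_insert_of_mem hi))

theorem tv_mul_inv_cancel_left (g : (Module.End F V)ˣ) (X : Module.End F V) :
    (g : Module.End F V) * (((g⁻¹ : (Module.End F V)ˣ) : Module.End F V) * X) = X := by
  rw [← mul_assoc, Units.mul_inv, one_mul]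

theorem inv_mul_cancel_left' (g : (Module.End F V)ˣ) (X : Module.End F V) :
    ((g⁻¹ : (Module.End F V)ˣ) : Module.End F V) * ((g : Module.End F V) * X) = X := by
  rw [← mul_assoc, Units.inv_mul, one_mul]

/-- **The slot lemma**, `dim W = 2`, `q ≥ 5` odd. -/
theorem Good.slot_lemma_two [Fintype F] [FiniteDimensional F W] [FiniteDimensional F W'] [Nontrivial W']
    [FiniteDimensional F V] {M : Subgroup (Module.End F V)ˣ} [Finite M] (hM : S.Good M) (h2 : (2 : F) ≠ 0)
    (hq : 3 < Fintype.card F) (hn : (Module.finrank F W' : F) ≠ 0) {w u : W} (hwu : S.ω w u = 1)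
    (hW : ∀ w u, S.ω w u = 1 → ∀ x, x = S.ω w x • u - S.ω u x • w)
    (h3 : ∀ X : Module.End F V, (∀ e ∈ S.DM M, S.IsCo (e : Module.End F V) → X * e = e * X) → S.IsOp X)
    {e : (Module.End F V)ˣ} (he : e ∈ S.DM M) :
    (∀ w l, S.tv w l * e = e * S.tv w l) ∨ ∃ b l, b ≠ 0 ∧ e = S.tv b l := by
  classical
  have hwW := hW w u hwu
  have hw0 := wu_ne hwu
  -- an element `a` with `a * a ≠ 1`
  obtain ⟨a, ha, ha2⟩ : ∃ a : F, a ≠ 0 ∧ a * a ≠ 1 := by
    by_contra hcon
    push Not at hcon
    have h4 : (Finset.univ : Finset F) ⊆ {0, 1, -1} := by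
      intro x _
      by_cases hx : x = 0
      · rw [hx]; simp
      · have h5 : (x - 1) * (x + 1) = 0 := by
          have := hcon x hx
          linear_combination this
        rcases mul_eq_zero.1 h5 with h6 | h6
        · rw [sub_eq_zero.1 h6]; simp
        · rw [eq_neg_of_add_eq_zero_left h6]; simp
    have h5 := Finset.card_le_card h4
    have h6 : ({0, 1, -1} : Finset F).card ≤ 3 := Finset.card_le_three
    rw [Finset.card_univ] at h5
    omega
  -- properties of the conjugates of the `Δ b`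
  have hsqD : ∀ e ∈ S.DM M, ∀ x, (e : Module.End F V) ((e : Module.End F V) x - x) = (e : Module.End F V) x - x := by
    intro e he x
    obtain ⟨A, B, hAB, hBA, -, -⟩ := exists_factor he
    have h5 : (e : Module.End F V) x - x = A (B x) := by rw [hAB]; abel
    rw [h5, hAB, hBA, map_zero, add_zero]
  have hC : ∀ {w : W}, w ≠ 0 → ∀ e ∈ S.DM M, (e : Module.End F V) * S.Δ w = S.Δ w * e →
      (∃ l, e = S.tv w l) ∨ S.IsCo (e : Module.End F V) := fun {w} hw e he hc =>
    hM.comm_Δ hW h2 ha ha2 hw (DM_subset hM.tv_mem he) (hsqD e he) hc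
  have hΔ0 : ∀ {w : W}, w ≠ 0 → S.Δ w ≠ 0 := by
    intro w hw h
    obtain ⟨u, hu⟩ := S.exists_pair hw
    obtain ⟨y, hy⟩ := exists_ne (0 : W')
    have h5 := LinearMap.congr_fun h (S.i u y)
    rw [S.Δ_apply, S.ci, hu, one_smul, LinearMap.zero_apply] at h5
    exact hy (S.i_injective hw (by rw [h5, map_zero]))
  have hΔne : ∀ {w : W}, w ≠ 0 → ¬ S.IsCo (S.Δ w) := by
    intro w hw h
    obtain ⟨u, hu⟩ := S.exists_pair hw
    have h5 := (IsOp.E (S := S) u w).comm h
    obtain ⟨y, hy⟩ := exists_ne (0 : W')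
    have h6 := LinearMap.congr_fun h5 (S.i u y)
    simp only [Module.End.mul_apply, S.Δ_apply, E_apply, S.ci, hu, S.alt, one_smul, zero_smul, map_zero] at h6
    exact hy (S.i_injective hw (by rw [← h6, map_zero]))
  obtain ⟨π, hπ⟩ := exists_isPr hwu hwW hn
  have hπop : ∀ X, S.IsOp X → π X = X := fun X hX => hπ.apply_op hwu hwW hn hX
  have hactop : ∀ g : (Module.End F V)ˣ, S.IsOp (g : Module.End F V) →
      S.IsOp ((g⁻¹ : (Module.End F V)ˣ) : Module.End F V) → act g π = π := by
    intro g hg hg'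
    exact hπ.act_eq hwu hwW hn (fun X hX => (hg.mul hX).mul hg') (fun X hX => (hg'.mul hX).mul hg)
  -- `h` normalising the root group stabilises `π`
  have key2 : ∀ h ∈ M, ∀ (w : W) (μ : F), w ≠ 0 → μ ≠ 0 →
      (h : Module.End F V) * S.Δ w * ((h⁻¹ : (Module.End F V)ˣ) : Module.End F V) = μ • S.Δ w → act h π = π := by
    have half : ∀ h ∈ M, ∀ (w : W) (μ : F), w ≠ 0 → μ ≠ 0 →
      (h : Module.End F V) * S.Δ w * ((h⁻¹ : (Module.End F V)ˣ) : Module.End F V) = μ • S.Δ w →
      ∀ X, S.IsOp X → S.IsOp ((h : Module.End F V) * X * ((h⁻¹ : (Module.End F V)ˣ) : Module.End F V)) := by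
      intro h hh w μ hw hμ hhw X hX
      refine h3 _ fun e he heco => ?_
      -- `h⁻¹ e h` commutes with `Δ w`
      have he' : h⁻¹ * e * h ∈ S.DM M := by
        have := conj_mem_DM (M.inv_mem hh) he
        rwa [inv_inv] at this
      have h5 : ((h⁻¹ * e * h : (Module.End F V)ˣ) : Module.End F V) * S.Δ w
          = S.Δ w * ((h⁻¹ * e * h : (Module.End F V)ˣ) : Module.End F V) := by
        have h6 : S.Δ w = ((h⁻¹ : (Module.End F V)ˣ) : Module.End F V) * (μ • S.Δ w) * h := by
          rw [← hhw]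
          simp only [mul_assoc, inv_mul_cancel_left', Units.inv_mul, mul_one]
        have h7 : (e : Module.End F V) * S.Δ w = S.Δ w * e := ((IsOp.Δ w).comm heco).symm
        rw [h6, Units.val_mul, Units.val_mul]
        simp only [mul_assoc, tv_mul_inv_cancel_left, smul_mul_assoc, mul_smul_comm]
        rw [← mul_assoc (e : Module.End F V), h7]
        simp only [mul_assoc]
      rcases hC hw _ he' h5 with ⟨l, hl⟩ | hco
      · exfalso
        have h6 : e = h * S.tv w l * h⁻¹ := by rw [← hl]; group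
        have h7 : (e : Module.End F V) = 1 + (l * μ) • S.Δ w := by
          rw [h6, Units.val_mul, Units.val_mul, S.coe_tv, mul_add, add_mul, mul_one, Units.mul_inv, mul_smul_comm,
            smul_mul_assoc, hhw, smul_smul]
        have h8 : l * μ ≠ 0 := by
          intro h0
          rw [h0, zero_smul, add_zero] at h7
          have h9 : e = 1 := Units.ext h7
          obtain ⟨g, hg, w', hw', l', hl', heq⟩ := he
          rw [h9] at heq
          have h10 : S.tv w' l' = 1 := by
            have : S.tv w' l' = g⁻¹ * (g * S.tv w' l' * g⁻¹) * g := by group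
            rw [this, ← heq]; group
          have h11 := congrArg Units.val h10
          rw [S.coe_tv, Units.val_one, add_eq_left] at h11
          exact (smul_eq_zero.1 h11).elim hl' (hΔ0 hw')
        apply hΔne hw
        have h9 : S.Δ w = (l * μ)⁻¹ • ((e : Module.End F V) - 1) := by
          rw [h7, add_sub_cancel_left, smul_smul, inv_mul_cancel₀ h8, one_smul]
        rw [h9]
        exact (heco.sub IsCo.one).smul _
      · have h6 := hX.comm hco
        rw [Units.val_mul, Units.val_mul] at h6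
        -- X (h⁻¹ e h) = (h⁻¹ e h) X
        have h7 := congrArg (fun T => (h : Module.End F V) * T * ((h⁻¹ : (Module.End F V)ˣ) : Module.End F V)) h6
        simp only [mul_assoc, tv_mul_inv_cancel_left, Units.mul_inv, mul_one] at h7
        rw [mul_assoc, mul_assoc]
        exact h7
    intro h hh w μ hw hμ hhw
    refine hπ.act_eq hwu hwW hn (half h hh w μ hw hμ hhw) ?_
    have h5 := half h⁻¹ (M.inv_mem hh) w μ⁻¹ hw (inv_ne_zero hμ) (by
      rw [inv_inv]
      have h6 : S.Δ w = μ⁻¹ • ((h : Module.End F V) * S.Δ w * ((h⁻¹ : (Module.End F V)ˣ) : Module.End F V)) := by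
        rw [hhw, smul_smul, inv_mul_cancel₀ hμ, one_smul]
      nth_rewrite 1 [h6]
      simp only [mul_assoc, inv_mul_cancel_left', Units.inv_mul, mul_one, smul_mul_assoc, mul_smul_comm])
    rwa [inv_inv] at h5
  have key3 : ∀ g ∈ M, ∀ (b w : W) (μ : F), b ≠ 0 → w ≠ 0 → μ ≠ 0 →
      (g : Module.End F V) * S.Δ b * ((g⁻¹ : (Module.End F V)ˣ) : Module.End F V) = μ • S.Δ w → act g π = π := by
    intro g hg b w μ hb hw hμ hgb
    obtain ⟨s, hs, hs1, hs2, hs3⟩ := exists_trans hM.tv_mem hW hw hb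
    have h5 : act (g * s) π = π := by
      refine key2 _ (M.mul_mem hg hs) w μ hw hμ ?_
      rw [← hgb, ← hs3, mul_inv_rev, Units.val_mul, Units.val_mul]
      simp only [mul_assoc]
    rwa [act_mul, hactop s hs1 hs2] at h5
  -- the orbit
  have hFin : Fintype M := Fintype.ofFinite M
  let Ω : Finset (Module.End F V →ₗ[F] Module.End F V) := Finset.univ.image fun g : M => act (g : (Module.End F V)ˣ) π
  have hΩ : ∀ φ, φ ∈ Ω ↔ ∃ g ∈ M, act g π = φ := by
    intro φ
    simp only [Ω, Finset.mem_image, Finset.mem_univ, true_and, Subtype.exists, exists_prop]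
  have hπΩ : π ∈ Ω := (hΩ _).2 ⟨1, M.one_mem, act_one π⟩
  have hΩact : ∀ g ∈ M, ∀ φ ∈ Ω, act g φ ∈ Ω := by
    intro g hg φ hφ
    obtain ⟨h, hh, rfl⟩ := (hΩ _).1 hφ
    exact (hΩ _).2 ⟨g * h, M.mul_mem hg hh, act_mul g h π⟩
  let Co : (Module.End F V →ₗ[F] Module.End F V) → Prop := fun φ => ∀ x, S.IsCo (φ x)
  -- freeness
  have hfree : ∀ φ ∈ Ω, φ ≠ π → ¬ Co φ → ∀ (w : W), w ≠ 0 → ∀ l : F, act (S.tv w l) φ = φ → l = 0 := by
    intro φ hφ hφπ hφC w hw l hact
    by_contra hl
    obtain ⟨g, hg, rfl⟩ := (hΩ _).1 hφ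
    let e' : (Module.End F V)ˣ := g⁻¹ * S.tv w l * g
    have he'1 : act e' π = π := by
      show act (g⁻¹ * S.tv w l * g) π = π
      rw [act_mul, act_mul, hact, ← act_mul, inv_mul_cancel, act_one]
    have he'2 : act e'⁻¹ π = π := by
      nth_rewrite 1 [← he'1]
      rw [← act_mul, inv_mul_cancel, act_one]
    obtain ⟨ε, hε⟩ : ∃ ε, ε = l • (((g⁻¹ : (Module.End F V)ˣ) : Module.End F V) * S.Δ w * g) := ⟨_, rfl⟩
    have hεε : ε * ε = 0 := by
      rw [hε, smul_mul_smul_comm]
      have h5 : ((g⁻¹ : (Module.End F V)ˣ) : Module.End F V) * S.Δ w * g *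
          (((g⁻¹ : (Module.End F V)ˣ) : Module.End F V) * S.Δ w * g) = 0 := by
        simp only [mul_assoc, tv_mul_inv_cancel_left]
        rw [← mul_assoc (S.Δ w), S.Δ_mul_Δ_of_perp (S.alt w), zero_mul, mul_zero]
      rw [h5, smul_zero]
    have he'v : (e' : Module.End F V) = 1 + ε := by
      show ((g⁻¹ * S.tv w l * g : (Module.End F V)ˣ) : Module.End F V) = _
      rw [hε, Units.val_mul, Units.val_mul, S.coe_tv, mul_add, add_mul, mul_one, Units.inv_mul, mul_smul_comm,
        smul_mul_assoc]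
    have he'i : ((e'⁻¹ : (Module.End F V)ˣ) : Module.End F V) = 1 - ε := by
      have h5 : e'⁻¹ = g⁻¹ * (S.tv w l)⁻¹ * g := by
        show (g⁻¹ * S.tv w l * g)⁻¹ = _
        group
      rw [h5, hε, Units.val_mul, Units.val_mul, S.coe_tv_inv, mul_sub, sub_mul, mul_one, Units.inv_mul, mul_smul_comm,
        smul_mul_assoc]
    have hnorm : ∀ X, S.IsOp X → S.IsOp ((1 + ε) * X * (1 - ε)) := by
      intro X hX
      rw [← he'v, ← he'i, ← hπop X hX, ← act_conj, he'1]
      exact hπ.op _
    have hnorm' : ∀ X, S.IsOp X → S.IsOp ((1 - ε) * X * (1 + ε)) := by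
      intro X hX
      have h5 := act_conj e'⁻¹ π X
      rw [inv_inv, he'2, hπop X hX] at h5
      rw [← he'v, ← he'i, ← h5]
      exact hπ.op _
    rcases norm_sq_zero hwu hwW h2 hεε hnorm hnorm' with hop | hco
    · obtain ⟨b, μ, hb, hμ⟩ := op_sq_zero hwu hwW hop hεε
      have h5 : S.Δ w = (l⁻¹ * μ) • ((g : Module.End F V) * S.Δ b * ((g⁻¹ : (Module.End F V)ˣ) : Module.End F V)) := by
        have h6 : (g : Module.End F V) * ε * ((g⁻¹ : (Module.End F V)ˣ) : Module.End F V) = l • S.Δ w := by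
          rw [hε]
          simp only [mul_assoc, tv_mul_inv_cancel_left, smul_mul_assoc, mul_smul_comm, Units.mul_inv, mul_one]
        have h7 : S.Δ w = l⁻¹ • ((g : Module.End F V) * ε * ((g⁻¹ : (Module.End F V)ˣ) : Module.End F V)) := by
          rw [h6, smul_smul, inv_mul_cancel₀ hl, one_smul]
        rw [h7, hμ, mul_smul_comm, smul_mul_assoc, smul_smul]
      have hμ0 : l⁻¹ * μ ≠ 0 := by
        intro h0
        rw [h0, zero_smul] at h5
        exact hΔ0 hw h5
      apply hφπ
      refine key3 g hg b w (l⁻¹ * μ)⁻¹ hb hw (inv_ne_zero hμ0) ?_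
      rw [h5, smul_smul, inv_mul_cancel₀ hμ0, one_smul]
    · -- `tv w l` commutes with `g A g⁻¹`
      have hcomm : ∀ b, (g : Module.End F V) * S.Δ b * ((g⁻¹ : (Module.End F V)ˣ) : Module.End F V) * S.Δ w
          = S.Δ w * ((g : Module.End F V) * S.Δ b * ((g⁻¹ : (Module.End F V)ˣ) : Module.End F V)) := by
        intro b
        have h5 := (IsOp.Δ (S := S) b).comm hco
        rw [hε, mul_smul_comm, smul_mul_assoc] at h5
        have h6 := smul_right_injective _ hl h5
        have h7 := congrArg (fun T => (g : Module.End F V) * T * ((g⁻¹ : (Module.End F V)ˣ) : Module.End F V)) h6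
        simp only [mul_assoc, tv_mul_inv_cancel_left, Units.mul_inv, mul_one] at h7 ⊢
        exact h7
      apply hφC
      have hbco : ∀ b : W, b ≠ 0 →
          S.IsCo ((g : Module.End F V) * S.Δ b * ((g⁻¹ : (Module.End F V)ˣ) : Module.End F V)) := by
        intro b hb
        have heb : g * S.tv b 1 * g⁻¹ ∈ S.DM M := ⟨g, hg, b, hb, 1, one_ne_zero, rfl⟩
        have hebv : ((g * S.tv b 1 * g⁻¹ : (Module.End F V)ˣ) : Module.End F V)
            = 1 + (g : Module.End F V) * S.Δ b * ((g⁻¹ : (Module.End F V)ˣ) : Module.End F V) := by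
          rw [Units.val_mul, Units.val_mul, S.coe_tv, one_smul, mul_add, add_mul, mul_one, Units.mul_inv]
        rcases hC hw _ heb (by rw [hebv, add_mul, mul_add, one_mul, mul_one, hcomm]) with ⟨m, hm⟩ | hco'
        · exfalso
          have h5 : (g : Module.End F V) * S.Δ b * ((g⁻¹ : (Module.End F V)ˣ) : Module.End F V) = m • S.Δ w := by
            have h6 := congrArg Units.val hm
            rw [hebv, S.coe_tv, add_right_inj] at h6
            exact h6
          have hm0 : m ≠ 0 := by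
            rintro rfl
            rw [zero_smul] at h5
            have h6 : S.Δ b = ((g⁻¹ : (Module.End F V)ˣ) : Module.End F V) *
                ((g : Module.End F V) * S.Δ b * ((g⁻¹ : (Module.End F V)ˣ) : Module.End F V)) * g := by
              simp only [mul_assoc, inv_mul_cancel_left', Units.inv_mul, mul_one]
            rw [h5, mul_zero, zero_mul] at h6
            exact hΔ0 hb h6
          exact hφπ (key3 g hg b w m hb hw hm0 h5)
        · rw [hebv] at hco'
          have h5 := hco'.sub (IsCo.one (S := S))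
          rwa [add_sub_cancel_left] at h5
      intro x
      rw [act_apply]
      refine span_op hW (fun Y => S.IsCo ((g : Module.End F V) * Y * ((g⁻¹ : (Module.End F V)ˣ) : Module.End F V))) h2 hwu
        ?_ hbco ?_ ?_ (hπ.op _)
      · show S.IsCo _
        rw [mul_one, Units.mul_inv]
        exact IsCo.one
      · intro X Y hX hY
        show S.IsCo _
        rw [mul_add, add_mul]
        exact hX.add hY
      · intro l X hX
        show S.IsCo _
        rw [mul_smul_comm, smul_mul_assoc]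
        exact hX.smul l
  -- the sum over the rest vanishes
  let N : Finset (Module.End F V →ₗ[F] Module.End F V) := Ω.filter fun φ => φ ≠ π ∧ ¬ Co φ
  have hπCo : ¬ Co π := by
    intro h
    have h5 := h (S.Δ w)
    rw [hπop _ (IsOp.Δ w)] at h5
    exact hΔne hw0 h5
  have hcoconj : ∀ (w : W) (l : F) (φ : Module.End F V →ₗ[F] Module.End F V), Co (act (S.tv w l) φ) → Co φ := by
    intro w l φ h x
    have h5 := h (((S.tv w l : (Module.End F V)ˣ) : Module.End F V) * x * (((S.tv w l)⁻¹ : (Module.End F V)ˣ) : Module.End F V))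
    rw [act_conj] at h5
    have h6 := (IsOp.tv_inv (S := S) w l).comm h5
    have h7 : ((S.tv w l : (Module.End F V)ˣ) : Module.End F V) * φ x *
        (((S.tv w l)⁻¹ : (Module.End F V)ˣ) : Module.End F V) = φ x := by
      simp only [mul_assoc, inv_mul_cancel_left'] at h6
      have h8 := congrArg (fun T => T * ((S.tv w l : (Module.End F V)ˣ) : Module.End F V)) h6
      simp only [mul_assoc, Units.inv_mul, mul_one] at h8
      rw [mul_assoc]
      exact h8.symm
    rwa [h7] at h5
  have hzero : ∀ (w : W), w ≠ 0 → ∀ x, x * S.Δ w = S.Δ w * x → ∑ φ ∈ N, φ x = 0 := by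
    intro w hw x hx
    refine sum_eq_zero_of_free (C := F) (fun l φ => act (S.tv w l) φ) ?_ ?_ (fun φ => φ x) ?_ N ?_ ?_
    · intro φ
      have h5 : S.tv w (0 : F) = 1 := by
        refine ext_unit fun x => ?_
        rw [S.tv_apply, zero_smul, add_zero]
        rfl
      show act (S.tv w 0) φ = φ
      rw [h5, act_one]
    · intro s t φ
      show act (S.tv w (s + t)) φ = act (S.tv w s) (act (S.tv w t) φ)
      rw [S.tv_add, act_mul]
    · intro φ
      have h5 : ∀ l : F, act (S.tv w l) φ x = (1 + l • S.Δ w) * φ x * (1 - l • S.Δ w) := by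
        intro l
        have h6 : (((S.tv w l)⁻¹ : (Module.End F V)ˣ) : Module.End F V) * x * (S.tv w l : (Module.End F V)ˣ) = x := by
          have h7 : x * ((S.tv w l : (Module.End F V)ˣ) : Module.End F V) = (S.tv w l : (Module.End F V)ˣ) * x := by
            rw [S.coe_tv, mul_add, add_mul, mul_one, one_mul, mul_smul_comm, smul_mul_assoc, hx]
          rw [mul_assoc, h7, inv_mul_cancel_left']
        rw [act_apply, h6, S.coe_tv, S.coe_tv_inv]
      show ∑ l : F, act (S.tv w l) φ x = 0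
      simp only [h5]
      exact sum_conj_eq_zero hq _ _
    · intro φ hφ l
      obtain ⟨h5, h6, h7⟩ := Finset.mem_filter.1 hφ
      refine Finset.mem_filter.2 ⟨hΩact _ (hM.tv_mem _ _) _ h5, fun h => h6 ?_, fun h => h7 (hcoconj _ _ _ h)⟩
      have h8 : act (S.tv w l)⁻¹ (act (S.tv w l) φ) = act (S.tv w l)⁻¹ π := congrArg _ h
      rw [← act_mul, inv_mul_cancel, act_one] at h8
      rw [h8]
      exact hactop _ (IsOp.tv_inv w l) (by rw [inv_inv]; exact IsOp.tv w l)
    · intro φ hφ l hl
      obtain ⟨h5, h6, h7⟩ := Finset.mem_filter.1 hφ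
      exact hfree φ h5 h6 h7 w hw l hl
  have hzero' : ∀ x, ∑ φ ∈ N, φ x = 0 := by
    intro x
    refine span_all hW (fun x => ∑ φ ∈ N, φ x = 0) h2 hwu ?_ ?_ ?_ ?_ x
    · intro X hX
      exact hzero w hw0 X ((IsOp.Δ w).comm hX).symm
    · intro b hb Z
      refine hzero b hb _ ?_
      ext x
      simp only [Module.End.mul_apply, S.Δ_apply, LinearMap.comp_apply, S.ci, S.alt, zero_smul, map_zero]
    · intro X Y hX hY
      show ∑ φ ∈ N, φ (X + Y) = 0
      simp only [map_add]
      rw [Finset.sum_add_distrib, hX, hY, add_zero]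
    · intro l X hX
      show ∑ φ ∈ N, φ (l • X) = 0
      simp only [map_smul]
      rw [← Finset.smul_sum, hX, smul_zero]
  -- `F`
  have hsum : ∀ x, ∑ φ ∈ Ω, φ x = π x + ∑ φ ∈ (Ω.erase π).filter (fun φ => Co φ), φ x := by
    intro x
    rw [← Finset.add_sum_erase Ω (fun φ => φ x) hπΩ, ← Finset.sum_filter_add_sum_filter_not (Ω.erase π) (fun φ => Co φ)]
    have h5 : (Ω.erase π).filter (fun φ => ¬ Co φ) = N := by
      ext φ
      simp only [N, Finset.mem_filter, Finset.mem_erase]
      tauto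
    rw [h5, hzero', add_zero]
  have hequiv : ∀ g ∈ M, ∀ x, ∑ φ ∈ Ω, φ ((g : Module.End F V) * x * ((g⁻¹ : (Module.End F V)ˣ) : Module.End F V))
      = (g : Module.End F V) * (∑ φ ∈ Ω, φ x) * ((g⁻¹ : (Module.End F V)ˣ) : Module.End F V) := by
    intro g hg x
    rw [Finset.mul_sum, Finset.sum_mul]
    refine Finset.sum_bij' (fun φ _ => act g⁻¹ φ) (fun φ _ => act g φ) ?_ ?_ ?_ ?_ ?_
    · intro φ hφ
      exact hΩact _ (M.inv_mem hg) _ hφ
    · intro φ hφ
      exact hΩact _ hg _ hφ
    · intro φ hφ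
      show act g (act g⁻¹ φ) = φ
      rw [← act_mul, mul_inv_cancel, act_one]
    · intro φ hφ
      show act g⁻¹ (act g φ) = φ
      rw [← act_mul, inv_mul_cancel, act_one]
    · intro φ hφ
      rw [act_apply, inv_inv]
      simp only [mul_assoc, tv_mul_inv_cancel_left, Units.mul_inv, mul_one]
  have hFΔ : ∀ b, ∑ φ ∈ Ω, φ (S.Δ b) = S.Δ b := by
    intro b
    rw [hsum, hπop _ (IsOp.Δ b), add_eq_left]
    refine Finset.sum_eq_zero fun φ hφ => ?_
    obtain ⟨h5, h6⟩ := Finset.mem_filter.1 hφ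
    obtain ⟨g, hg, rfl⟩ := (hΩ _).1 (Finset.mem_of_mem_erase h5)
    rw [act_apply]
    have h7 : π (((g⁻¹ : (Module.End F V)ˣ) : Module.End F V) * S.Δ b * g) = 0 := by
      refine hπ.apply_zero hwu hwW hn fun a ha => ?_
      have h8 : S.IsCo ((g : Module.End F V) * a * ((g⁻¹ : (Module.End F V)ˣ) : Module.End F V)) := by
        have h9 := h6 ((g : Module.End F V) * a * ((g⁻¹ : (Module.End F V)ˣ) : Module.End F V))
        rwa [act_conj, hπop a ha] at h9
      have h9 := trace_Δ_co h8 b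
      rw [← h9, mul_assoc, mul_assoc, LinearMap.trace_mul_comm, mul_assoc, mul_assoc]
    rw [h7, mul_zero, zero_mul]
  -- conclusion
  obtain ⟨g, hg, b, hb, l, hl, rfl⟩ := he
  obtain ⟨X, hX⟩ : ∃ X, X = (g : Module.End F V) * S.Δ b * ((g⁻¹ : (Module.End F V)ˣ) : Module.End F V) := ⟨_, rfl⟩
  have hFX : X = π X + ∑ φ ∈ (Ω.erase π).filter (fun φ => Co φ), φ X := by
    rw [← hsum]
    nth_rewrite 2 [hX]
    rw [hequiv g hg, hFΔ, hX]
  have hXX : X * X = 0 := by
    rw [hX]
    simp only [mul_assoc, inv_mul_cancel_left']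
    rw [← mul_assoc (S.Δ b), S.Δ_mul_Δ_of_perp (S.alt b), zero_mul, mul_zero]
  have hco : S.IsCo (∑ φ ∈ (Ω.erase π).filter (fun φ => Co φ), φ X) :=
    IsCo.sum _ _ fun φ hφ => (Finset.mem_filter.1 hφ).2 X
  have hev : ((g * S.tv b l * g⁻¹ : (Module.End F V)ˣ) : Module.End F V) = 1 + l • X := by
    rw [Units.val_mul, Units.val_mul, S.coe_tv, mul_add, add_mul, mul_one, Units.mul_inv, mul_smul_comm,
      smul_mul_assoc, hX]
  have hdich : S.IsOp X ∨ S.IsCo X := by
    have h5 := op_or_co hwu hwW h2 (hπ.op X) hco (by rw [← hFX, hXX])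
    rwa [← hFX] at h5
  rcases hdich with hop | hco'
  · right
    obtain ⟨b', μ, hb', hμ⟩ := op_sq_zero hwu hwW hop hXX
    refine ⟨b', l * μ, hb', Units.ext ?_⟩
    rw [hev, hμ, smul_smul, S.coe_tv]
  · left
    intro w' l'
    apply Units.ext
    rw [Units.val_mul (S.tv w' l'), Units.val_mul _ (S.tv w' l'), hev]
    exact (IsOp.tv w' l').comm (IsCo.one.add (hco'.smul l))

end Slot

end Cfsg.Agent.H874
end

-- part: H874/TenGood
section
/-!
# Good slots: the root elements are permuted
-/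

set_option autoImplicit false
set_option linter.unusedSimpArgs false
set_option linter.unusedVariables false
set_option linter.unusedSectionVars false

namespace Cfsg.Agent.H874

open Matrix Cfsg.Agent.H889

variable {F : Type*} [Field F] {k t : ℕ}

section Slots

variable {ω : (Fin k → F) →ₗ[F] (Fin k → F) →ₗ[F] F} {M : Subgroup (Module.End F ((Fin t → Fin k) → F))ˣ}

/-- Commuting with the root elements of a slot implies commuting with the slot. -/
theorem comm_slot (hω : ∀ w, ω w w = 0) (hn : ∀ w, (∀ x, ω w x = 0) → w = 0)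
    (hex : ∀ u v : Fin k → F, u ≠ 0 → v ≠ 0 → ∃ x, ω u x ≠ 0 ∧ ω v x ≠ 0) {j : Fin t}
    {X : Module.End F ((Fin t → Fin k) → F)} (h : ∀ w, w ≠ 0 → X * sl j (eM ω w w) = sl j (eM ω w w) * X)
    (B : Matrix (Fin k) (Fin k) F) : X * sl j B = sl j B * X := by
  refine gen_eM hn hex hω (fun B => X * sl j B = sl j B * X) h ?_ ?_ ?_ ?_ B
  · show X * sl j 0 = sl j 0 * X
    rw [sl_zero, mul_zero, zero_mul]
  · intro A B hA hB
    show X * sl j (A + B) = sl j (A + B) * X
    rw [sl_add, mul_add, add_mul, hA, hB]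
  · intro c A hA
    show X * sl j (c • A) = sl j (c • A) * X
    rw [sl_smul, mul_smul_comm, smul_mul_assoc, hA]
  · intro A B hA hB
    show X * sl j (A * B) = sl j (A * B) * X
    rw [← sl_mul, ← mul_assoc, hA, mul_assoc, hB, mul_assoc]

/-- The commutant of all slots but one. -/
theorem isOp_of_comm [NeZero k] (hω : ∀ w, ω w w = 0) (hn : ∀ w, (∀ x, ω w x = 0) → w = 0) {j : Fin t}
    {X : Module.End F ((Fin t → Fin k) → F)} (h : ∀ i, i ≠ j → ∀ B, X * sl i B = sl i B * X) :
    (tslot ω hω hn j).IsOp X := by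
  let S := tslot ω hω hn j
  have hZ : ∀ v w : Fin k → F, ∃ c : F, ∀ y, S.c v (X (S.i w y)) = c • y := by
    intro v w
    have h1 : ∀ i B, coj j (S.c v ∘ₗ X ∘ₗ S.i w) * sl i B = sl i B * coj j (S.c v ∘ₗ X ∘ₗ S.i w) := by
      intro i B
      by_cases hi : i = j
      · subst hi; exact coj_comm_self ω hω hn i B _
      · exact coj_comm_of ω hω hn hi B (h i hi B) v w
    obtain ⟨c, hc⟩ := scalar_of_comm h1
    have h3 : coj j (S.c v ∘ₗ X ∘ₗ S.i w) = c • 1 := LinearMap.ext fun x => by rw [hc]; rfl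
    have h4 := coj_eq_smul hω hn h3
    exact ⟨c, fun y => LinearMap.congr_fun h4 y⟩
  choose τ hτ using hZ
  have hsurj : Function.Surjective (ω : (Fin k → F) →ₗ[F] Module.Dual F (Fin k → F)) := by
    refine (LinearMap.injective_iff_surjective_of_finrank_eq_finrank
      (Subspace.dual_finrank_eq (K := F) (V := Fin k → F)).symm).1 ?_
    rw [injective_iff_map_eq_zero]
    intro w hw
    exact hn w fun x => by rw [hw, LinearMap.zero_apply]
  choose b hb using fun q : Fin k => hsurj (LinearMap.proj q)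
  let y0 : ({i : Fin t // i ≠ j} → Fin k) → F := Pi.single (fun _ => 0) 1
  have hy0 : ∀ v w, τ v w = S.c v (X (S.i w y0)) (fun _ => 0) := by
    intro v w
    rw [hτ, Pi.smul_apply]
    show τ v w = τ v w * (Pi.single (fun _ => 0) (1 : F) : ({i : Fin t // i ≠ j} → Fin k) → F) (fun _ => 0)
    rw [Pi.single_eq_same, mul_one]
  let T : Module.End F (Fin k → F) :=
    { toFun := fun w p => τ (b p) w
      map_add' := fun w w' => by
        funext p
        rw [Pi.add_apply, hy0, hy0, hy0, map_add, LinearMap.add_apply, map_add, map_add, Pi.add_apply]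
      map_smul' := fun c w => by
        funext p
        rw [RingHom.id_apply, Pi.smul_apply, hy0, hy0, map_smul, LinearMap.smul_apply, map_smul, map_smul,
          Pi.smul_apply] }
  have hdec : ∀ v : Fin k → F, v = ∑ p, ω v (Pi.single p 1) • b p := by
    intro v
    rw [← sub_eq_zero]
    refine hn _ fun x => ?_
    rw [map_sub, map_sum, LinearMap.sub_apply, LinearMap.sum_apply, omega_eq_sum ω v x, sub_eq_zero]
    refine Finset.sum_congr rfl fun p _ => ?_
    rw [map_smul, LinearMap.smul_apply, hb, LinearMap.proj_apply, smul_eq_mul]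
  refine ⟨T, fun w y => S.ext_c fun v => ?_⟩
  rw [hτ, Slot.ci]
  congr 1
  show τ v w = ω v (T w)
  rw [omega_eq_sum ω v (T w)]
  have h5 : τ v w = ∑ p, ω v (Pi.single p 1) * τ (b p) w := by
    rw [hy0]
    conv_lhs => rw [hdec v]
    rw [map_sum, LinearMap.sum_apply, Finset.sum_apply]
    refine Finset.sum_congr rfl fun p _ => ?_
    rw [map_smul, LinearMap.smul_apply, Pi.smul_apply, smul_eq_mul, hy0]
  exact h5

/-- Vectors orthogonal to `w` outside `⟨w⟩`. -/
theorem exists_perp (hω : ∀ w, ω w w = 0) (hk : 3 ≤ k) {w : Fin k → F} (hw : w ≠ 0) :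
    ∃ v, ω w v = 0 ∧ ∀ a : F, v ≠ a • w := by
  by_contra hcon
  push Not at hcon
  have h1 : LinearMap.ker (ω w) ≤ Submodule.span F {w} := by
    intro v hv
    obtain ⟨a, ha⟩ := hcon v hv
    exact Submodule.mem_span_singleton.2 ⟨a, ha.symm⟩
  have h2 := Submodule.finrank_mono h1
  have h3 : Module.finrank F (Submodule.span F {w}) ≤ 1 := finrank_span_le_card ({w} : Set (Fin k → F)) |>.trans (by simp)
  have h4 := LinearMap.finrank_range_add_finrank_ker (ω w)
  have h5 : Module.finrank F (LinearMap.range (ω w)) ≤ 1 := by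
    have := Submodule.finrank_le (LinearMap.range (ω w))
    rwa [Module.finrank_self] at this
  rw [Module.finrank_fin_fun] at h4
  omega

theorem dim_two (hω : ∀ w, ω w w = 0) (hk : k = 2) {w u : Fin k → F} (hwu : ω w u = 1) (x : Fin k → F) :
    x = ω w x • u - ω u x • w := by
  subst hk
  have skew := skew_of_alt hω
  have huw : ω u w = -1 := by rw [skew, hwu]
  have hli : LinearIndependent F ![w, u] := by
    rw [LinearIndependent.pair_iff]
    intro a b hab
    have h1 := congrArg (ω w) hab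
    have h2 := congrArg (ω u) hab
    rw [map_add, map_smul, map_smul, hω, hwu, map_zero, smul_zero, zero_add, smul_eq_mul, mul_one] at h1
    rw [map_add, map_smul, map_smul, hω, huw, map_zero, smul_zero, add_zero, smul_eq_mul, mul_neg, mul_one,
      neg_eq_zero] at h2
    exact ⟨h2, h1⟩
  have hspan : Submodule.span F (Set.range ![w, u]) = ⊤ := by
    refine hli.span_eq_top_of_card_eq_finrank' ?_
    rw [Module.finrank_fin_fun, Fintype.card_fin]
  have hx : x ∈ Submodule.span F (Set.range ![w, u]) := by rw [hspan]; exact Submodule.mem_top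
  rw [Matrix.range_cons, Matrix.range_cons, Matrix.range_empty, Set.union_empty] at hx
  obtain ⟨a, b, hab⟩ := Submodule.mem_span_pair.1 hx
  rw [← hab, map_add, map_add, map_smul, map_smul, map_smul, map_smul, hω, hω, hwu, huw, smul_zero, smul_zero, zero_add,
    add_zero, smul_eq_mul, smul_eq_mul, mul_one, mul_neg, mul_one, neg_smul, sub_neg_eq_add, add_comm]

/-- Good slots: the root elements are permuted up to scalars. -/
theorem roots_of_good [Fintype F] [NeZero k] {p : ℕ} [Fact p.Prime] [CharP F p] (hp : Odd p) [Finite M]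
    (hM : LevelHyp ω M) (hω : ∀ w, ω w w = 0) (hn : ∀ w, (∀ x, ω w x = 0) → w = 0)
    (hex : ∀ u v : Fin k → F, u ≠ 0 → v ≠ 0 → ∃ x, ω u x ≠ 0 ∧ ω v x ≠ 0)
    (hroot : ∀ j v (l : F), In M (l • sl j (eM ω v v)))
    (hk : k = 2 ∧ 3 < Fintype.card F ∨ 3 ≤ k)
    (hgood : ∀ j, (tslot ω hω hn j).Good M)
    {g : (Module.End F ((Fin t → Fin k) → F))ˣ} (hg : g ∈ M) (i : Fin t) {w : Fin k → F} (hw : w ≠ 0) :
    ∃ (j : Fin t) (u : Fin k → F) (l : F), (g : Module.End F ((Fin t → Fin k) → F)) * sl i (eM ω w w) *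
      ((g⁻¹ : (Module.End F ((Fin t → Fin k) → F))ˣ) : Module.End F ((Fin t → Fin k) → F)) = l • sl j (eM ω u u) := by
  classical
  have h2 : (2 : F) ≠ 0 := by
    intro h
    have h3 : ((2 : ℕ) : F) = 0 := by exact_mod_cast h
    rw [CharP.cast_eq_zero_iff F p] at h3
    obtain ⟨m, hm⟩ := hp
    have h4 := Nat.le_of_dvd (by norm_num) h3
    have h5 : p ≠ 1 := CharP.char_ne_one F p
    omega
  -- permutations relate the slots
  have hperm : ∀ (σ : Equiv.Perm (Fin t)), ∃ u ∈ M, ∀ j B, (u : Module.End F ((Fin t → Fin k) → F)) * sl (σ j) B *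
      ((u⁻¹ : (Module.End F ((Fin t → Fin k) → F))ˣ) : Module.End F ((Fin t → Fin k) → F)) = sl j B := by
    intro σ
    obtain ⟨u, hu, hu1⟩ := hM.perm_mem σ
    refine ⟨u, hu, fun j B => ?_⟩
    have h3 := hu1 (Function.update (fun _ => 1) (σ j) B)
    have h4 : (fun i => Function.update (fun _ : Fin t => (1 : Matrix (Fin k) (Fin k) F)) (σ j) B (σ i))
        = Function.update (fun _ => 1) j B := by
      funext l
      by_cases hl : l = j
      · subst hl; rw [Function.update_self, Function.update_self]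
      · rw [Function.update_of_ne hl, Function.update_of_ne fun h => hl (σ.injective h)]
    rw [h4] at h3
    rw [sl, h3, mul_assoc, Units.mul_inv, mul_one]
    rfl
  -- all root elements are in `DM` for each slot
  have hDM : ∀ (i j : Fin t) (w : Fin k → F), w ≠ 0 → ∀ g ∈ M,
      g * (tslot ω hω hn i).tv w 1 * g⁻¹ ∈ (tslot ω hω hn j).DM M := by
    intro i j w hw g hg
    obtain ⟨u, hu, hu1⟩ := hperm (Equiv.swap i j)
    refine ⟨g * u, M.mul_mem hg hu, w, hw, 1, one_ne_zero, ?_⟩
    have h3 : (tslot ω hω hn i).tv w 1 = u * (tslot ω hω hn j).tv w 1 * u⁻¹ := by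
      apply Units.ext
      have h4 := hu1 i (eM ω w w)
      rw [Equiv.swap_apply_left] at h4
      rw [Units.val_mul, Units.val_mul, Slot.coe_tv, Slot.coe_tv, one_smul, one_smul, Δ_eq_sl, Δ_eq_sl, mul_add,
        add_mul, mul_one, Units.mul_inv, h4]
    rw [h3]
    group
  -- the slot lemma
  have hslot : ∀ (j : Fin t) (e : (Module.End F ((Fin t → Fin k) → F))ˣ), e ∈ (tslot ω hω hn j).DM M →
      (∀ w l, (tslot ω hω hn j).tv w l * e = e * (tslot ω hω hn j).tv w l) ∨
        ∃ b l, b ≠ 0 ∧ e = (tslot ω hω hn j).tv b l := by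
    intro j e he
    have hne : Nontrivial (({i : Fin t // i ≠ j} → Fin k) → F) := Pi.nontrivial_at (fun _ => (0 : Fin k))
    rcases hk with ⟨hk2, hq⟩ | hk3
    · obtain ⟨w0, hw0⟩ : ∃ w0 : Fin k → F, w0 ≠ 0 := ⟨w, hw⟩
      obtain ⟨u0, hu0⟩ := exists_one hn hw0
      refine Slot.Good.slot_lemma_two (hgood j) h2 hq ?_ (w := w0) (u := u0) hu0
        (fun w u hwu x => dim_two hω hk2 hwu x) ?_ he
      · rw [Module.finrank_pi, Fintype.card_fun, Fintype.card_fin, hk2]
        push_cast
        exact pow_ne_zero _ h2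
      · intro X hX
        refine isOp_of_comm hω hn fun i hij B => comm_slot hω hn hex (fun w hw => ?_) B
        have h3 : (tslot ω hω hn i).tv w 1 ∈ (tslot ω hω hn j).DM M := by
          have := hDM i j w hw 1 M.one_mem
          rwa [one_mul, inv_one, mul_one] at this
        have h4 := hX _ h3 (by
          rw [Slot.coe_tv, one_smul, Δ_eq_sl]
          exact Slot.IsCo.add Slot.IsCo.one (isCo_sl ω hω hn hij _))
        rw [Slot.coe_tv, one_smul, Δ_eq_sl, mul_add, add_mul, mul_one, one_mul] at h4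
        exact add_left_cancel h4
    · exact Slot.Good.slot_lemma (p := p) (hgood j) h2 (fun w hw => exists_perp hω hk3 hw) he
  obtain ⟨e, he⟩ : ∃ e, e = g * (tslot ω hω hn i).tv w 1 * g⁻¹ := ⟨_, rfl⟩
  have hev : (e : Module.End F ((Fin t → Fin k) → F)) = 1 + (g : Module.End F ((Fin t → Fin k) → F)) *
      sl i (eM ω w w) *
      ((g⁻¹ : (Module.End F ((Fin t → Fin k) → F))ˣ) : Module.End F ((Fin t → Fin k) → F)) := by
    rw [he, Units.val_mul, Units.val_mul, Slot.coe_tv, one_smul, Δ_eq_sl, mul_add, add_mul, mul_one, Units.mul_inv]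
  by_cases hall : ∀ j w l, (tslot ω hω hn j).tv w l * e = e * (tslot ω hω hn j).tv w l
  · -- `e` is scalar
    exfalso
    have h3 : ∀ j B, (e : Module.End F ((Fin t → Fin k) → F)) * sl j B
        = sl j B * (e : Module.End F ((Fin t → Fin k) → F)) := by
      intro j B
      refine comm_slot hω hn hex (fun w hw => ?_) B
      have h4 := congrArg Units.val (hall j w 1)
      rw [Units.val_mul, Units.val_mul, Slot.coe_tv, one_smul, Δ_eq_sl, mul_add, add_mul, mul_one, one_mul] at h4
      exact (add_left_cancel h4).symm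
    obtain ⟨c, hc⟩ := scalar_of_comm h3
    have hec : (e : Module.End F ((Fin t → Fin k) → F)) = c • 1 := LinearMap.ext fun x => by rw [hc]; rfl
    obtain ⟨x, hx⟩ : ∃ x, x = (g : Module.End F ((Fin t → Fin k) → F)) * sl i (eM ω w w) *
      ((g⁻¹ : (Module.End F ((Fin t → Fin k) → F))ˣ) : Module.End F ((Fin t → Fin k) → F)) := ⟨_, rfl⟩
    have hxx : x * x = 0 := by
      rw [hx]
      simp only [mul_assoc]
      rw [← mul_assoc _ (g : Module.End F ((Fin t → Fin k) → F)), Units.inv_mul, one_mul,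
        ← mul_assoc (sl i _) (sl i _), sl_mul, eM_sq ω (hω w), sl_zero, zero_mul, mul_zero]
    have hxc : x = (c - 1) • 1 := by
      have h5 : x = (e : Module.End F ((Fin t → Fin k) → F)) - 1 := by rw [hev, add_sub_cancel_left, hx]
      rw [h5, hec]
      refine LinearMap.ext fun y => ?_
      simp only [LinearMap.sub_apply, LinearMap.smul_apply, Module.End.one_apply, sub_smul, one_smul]
    have h0 : (Pi.single (fun _ => 0) 1 : (Fin t → Fin k) → F) ≠ 0 := by
      intro h
      have := congrFun h (fun _ => 0)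
      rw [Pi.single_eq_same] at this
      exact one_ne_zero this
    have hc1 : c - 1 = 0 := by
      rw [hxc, smul_mul_smul_comm, mul_one] at hxx
      have h5 := LinearMap.congr_fun hxx (Pi.single (fun _ => 0) 1)
      rw [LinearMap.smul_apply, Module.End.one_apply, LinearMap.zero_apply] at h5
      exact mul_self_eq_zero.1 ((smul_eq_zero.1 h5).resolve_right h0)
    rw [hc1, zero_smul] at hxc
    have h6 : sl i (eM ω w w) = ((g⁻¹ : (Module.End F ((Fin t → Fin k) → F))ˣ) : Module.End F ((Fin t → Fin k) → F)) * x * g := by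
      rw [hx]
      simp only [mul_assoc]
      rw [Units.inv_mul, mul_one, ← mul_assoc, Units.inv_mul, one_mul]
    rw [hxc, mul_zero, zero_mul] at h6
    have h7 : slot i (eM ω w w) = slot i 0 := by
      rw [slot_zero]
      have h8 : Matrix.toLin' (slot i (eM ω w w)) = Matrix.toLin' 0 := by rw [← sl_eq, h6, map_zero]
      exact Matrix.toLin'.injective h8
    exact eM_ne_zero hn hw (slot_inj h7)
  · push Not at hall
    obtain ⟨j, w', l', hne⟩ := hall
    rcases hslot j e (he ▸ hDM i j w hw g hg) with h | ⟨b, l, hb, h⟩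
    · exact absurd (h w' l') hne
    · refine ⟨j, b, l, ?_⟩
      have h4 := congrArg Units.val h
      rw [hev, Slot.coe_tv, Δ_eq_sl, add_right_inj] at h4
      exact h4

end Slots

end Cfsg.Agent.H874
end

-- part: H874/SpPower
section
/-!
# The tensor-wreath subgroups of `Sp_2m(q)`, `q` odd, are maximal
-/

set_option autoImplicit false
set_option linter.unusedSimpArgs false
set_option linter.unusedVariables false
set_option linter.unusedSectionVars false

namespace Cfsg.Agent.H874

open Matrix Cfsg.Agent.H889 Cfsg.Geo Cfsg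
open Cfsg.Agent.H875 Cfsg.Agent.ClassicalGeometry.SympBasic Cfsg.Agent.ClassicalGeometry.SympSiegel
open scoped MatrixGroups

variable {F : Type*} [Field F] {k t m : ℕ}

/-- `F ^ κ ≃ F ^ ι` given by `x ↦ P (x ∘ e)`. -/
noncomputable def psi (e : (Fin m ⊕ Fin m) ≃ (Fin t → Fin k)) (P : GL (Fin m ⊕ Fin m) F) :
    ((Fin t → Fin k) → F) →ₗ[F] (Fin m ⊕ Fin m → F) :=
  Matrix.toLin' (P : Matrix (Fin m ⊕ Fin m) (Fin m ⊕ Fin m) F) ∘ₗ LinearMap.funLeft F F e

theorem psi_apply (e : (Fin m ⊕ Fin m) ≃ (Fin t → Fin k)) (P : GL (Fin m ⊕ Fin m) F) (x : (Fin t → Fin k) → F) :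
    psi e P x = (P : Matrix (Fin m ⊕ Fin m) (Fin m ⊕ Fin m) F) *ᵥ (x ∘ e) := rfl

theorem psi_surj (e : (Fin m ⊕ Fin m) ≃ (Fin t → Fin k)) (P : GL (Fin m ⊕ Fin m) F) (v : Fin m ⊕ Fin m → F) :
    ∃ x, v = psi e P x := exists_preimage e P v

theorem psi_inj (e : (Fin m ⊕ Fin m) ≃ (Fin t → Fin k)) (P : GL (Fin m ⊕ Fin m) F) : Function.Injective (psi e P) := by
  intro x y h
  rw [psi_apply, psi_apply] at h
  have h1 := congrArg (fun v => ((P⁻¹ : GL (Fin m ⊕ Fin m) F) : Matrix (Fin m ⊕ Fin m) (Fin m ⊕ Fin m) F) *ᵥ v) h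
  simp only [Matrix.mulVec_mulVec] at h1
  rw [← Units.val_mul, inv_mul_cancel, Units.val_one, Matrix.one_mulVec, Matrix.one_mulVec] at h1
  funext a
  have h2 := congrFun h1 (e.symm a)
  simpa using h2

/-- `GL(κ, F)` as units of the endomorphism ring. -/
noncomputable def toEnd : GL (Fin t → Fin k) F ≃* (Module.End F ((Fin t → Fin k) → F))ˣ :=
  Units.mapEquiv (Matrix.toLinAlgEquiv' : Matrix (Fin t → Fin k) (Fin t → Fin k) F ≃ₐ[F] _).toMulEquiv

theorem coe_toEnd (g : GL (Fin t → Fin k) F) :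
    ((toEnd g : (Module.End F ((Fin t → Fin k) → F))ˣ) : Module.End F ((Fin t → Fin k) → F)) = Matrix.toLin' g.val := rfl

/-- Elements of the symplectic group as endomorphisms of the tensor power. -/
noncomputable def Phi (e : (Fin m ⊕ Fin m) ≃ (Fin t → Fin k)) (P : GL (Fin m ⊕ Fin m) F) :
    Matrix.symplecticGroup (Fin m) F →* (Module.End F ((Fin t → Fin k) → F))ˣ :=
  (toEnd.toMonoidHom.comp (conjEquiv e P).symm.toMonoidHom).comp (toGL m F)

theorem Phi_apply (e : (Fin m ⊕ Fin m) ≃ (Fin t → Fin k)) (P : GL (Fin m ⊕ Fin m) F)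
    (g : Matrix.symplecticGroup (Fin m) F) :
    Phi e P g = toEnd ((conjEquiv e P).symm (toGL m F g)) := rfl

theorem psi_Phi (e : (Fin m ⊕ Fin m) ≃ (Fin t → Fin k)) (P : GL (Fin m ⊕ Fin m) F)
    (g : Matrix.symplecticGroup (Fin m) F) (x : (Fin t → Fin k) → F) :
    psi e P ((Phi e P g : Module.End F ((Fin t → Fin k) → F)) x) = g • psi e P x := by
  rw [Phi_apply, coe_toEnd, Matrix.toLin'_apply, psi_apply, ← mulVec_conjEquiv, MulEquiv.apply_symm_apply, psi_apply,
    toGL_mulVec]

/-- **Class 7 subgroups of symplectic groups in odd characteristic are maximal.** -/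
theorem tensorWreath_maximal {F : Type*} [Field F] [Fintype F] (m : ℕ) (hm : 0 < m) (hodd : Odd (Fintype.card F))
    (k t : ℕ) (ht : Odd t) (ht3 : 3 ≤ t) (hex : ¬ (Fintype.card F = 3 ∧ k = 2))
    (e : (Fin m ⊕ Fin m) ≃ (Fin t → Fin k)) (P : Matrix.GeneralLinearGroup (Fin m ⊕ Fin m) F)
    (f₁ : (Fin k → F) → (Fin k → F) → F) (hf₁ : Cfsg.Geo.IsSymplecticForm f₁)
    (hT : Cfsg.Geo.IsTensorPowerFormStructure id (Cfsg.sympForm m F) f₁ e P) :
    Cfsg.Geo.IsMaximalIn (Cfsg.spGL m F) (Cfsg.Geo.tensorWreathSubgroup k t e P ⊓ Cfsg.spGL m F) := by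
  classical
  -- characteristic
  obtain ⟨p, hpF⟩ := CharP.exists F
  have hpp : p.Prime := CharP.char_is_prime F p
  have : Fact p.Prime := ⟨hpp⟩
  have h2 : (2 : F) ≠ 0 := by
    intro h
    have hc : ((Fintype.card F : ℕ) : F) = 0 := Nat.cast_card_eq_zero F
    obtain ⟨n, hn⟩ := hodd
    rw [hn] at hc
    push_cast at hc
    rw [h, zero_mul, zero_add] at hc
    exact one_ne_zero hc
  have hp : Odd p := by
    rcases hpp.eq_two_or_odd' with h | h
    · exfalso
      apply h2
      have := CharP.cast_eq_zero F p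
      rw [h] at this
      exact_mod_cast this
    · exact h
  -- the form
  let ω : (Fin k → F) →ₗ[F] (Fin k → F) →ₗ[F] F := LinearMap.mk₂ F f₁ hf₁.bilinear.add_left
    (fun c x y => by rw [hf₁.bilinear.smul_left, smul_eq_mul]) hf₁.bilinear.add_right
    (fun c x y => by rw [hf₁.bilinear.smul_right, smul_eq_mul])
  have hωf : ∀ x y, ω x y = f₁ x y := fun x y => rfl
  have hω : ∀ w, ω w w = 0 := hf₁.alternating
  have hn : ∀ w, (∀ x, ω w x = 0) → w = 0 := by
    intro w hw
    by_contra h0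
    obtain ⟨-, x, hx⟩ := hf₁.nondegenerate w h0
    exact hx (hw x)
  have skew := skew_of_alt hω
  have hk0 : k ≠ 0 := by
    rintro rfl
    have h1 : IsEmpty (Fin t → Fin 0) := ⟨fun f => (f ⟨0, by omega⟩).elim0⟩
    exact h1.elim (e (Sum.inl ⟨0, hm⟩))
  have : NeZero k := ⟨hk0⟩
  have e0 : (Pi.single 0 1 : Fin k → F) ≠ 0 := by
    intro h
    have := congrFun h 0
    rw [Pi.single_eq_same] at this
    exact one_ne_zero this
  have hk2 : 2 ≤ k := by
    by_contra hk
    have hk1 : k = 1 := by omega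
    obtain ⟨f, hf⟩ := exists_one hn e0
    subst hk1
    have h1 : f = f 0 • (Pi.single 0 1 : Fin 1 → F) := by
      funext i
      rw [Subsingleton.elim i 0]
      simp
    rw [h1, map_smul, hω, smul_zero] at hf
    exact zero_ne_one hf
  have hcom : ∀ u v : Fin k → F, u ≠ 0 → v ≠ 0 → ∃ x, ω u x ≠ 0 ∧ ω v x ≠ 0 := by
    intro u v hu hv
    obtain ⟨x1, hx1⟩ := exists_one hn hu
    obtain ⟨x2, hx2⟩ := exists_one hn hv
    by_cases h1 : ω v x1 = 0
    · by_cases h3 : ω u x2 = 0
      · refine ⟨x1 + x2, ?_, ?_⟩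
        · rw [map_add, hx1, h3, add_zero]; exact one_ne_zero
        · rw [map_add, hx2, h1, zero_add]; exact one_ne_zero
      · exact ⟨x2, h3, by rw [hx2]; exact one_ne_zero⟩
    · exact ⟨x1, by rw [hx1]; exact one_ne_zero, h1⟩
  obtain ⟨c0, hc0, hform⟩ := hT
  let β : ((Fin t → Fin k) → F) →ₗ[F] ((Fin t → Fin k) → F) →ₗ[F] F :=
    LinearMap.mk₂ F (fun x y => sympForm m F (psi e P x) (psi e P y))
      (fun x y z => by rw [map_add, sympForm_add_left])
      (fun c x y => by rw [map_smul, sympForm_smul_left, smul_eq_mul])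
      (fun x y z => by rw [map_add, sympForm_add_right])
      (fun c x y => by rw [map_smul, sympForm_smul_right, smul_eq_mul])
  have hβf : ∀ x y, β x y = sympForm m F (psi e P x) (psi e P y) := fun x y => rfl
  have hβ : ∀ xs ys : Fin t → (Fin k → F), β (tp xs) (tp ys) = c0 * ∏ i, ω (xs i) (ys i) := by
    intro xs ys
    rw [hβf, psi_apply, psi_apply, hform, tensorPowerForm_tp f₁ hf₁.bilinear]
    rfl
  -- elements of the symplectic group
  have hmemG : ∀ g : GL (Fin t → Fin k) F, (∀ xs ys, β (g.val *ᵥ tp xs) (g.val *ᵥ tp ys) = β (tp xs) (tp ys)) →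
      ∃ h : Matrix.symplecticGroup (Fin m) F, toGL m F h = conjEquiv e P g := by
    intro g hg
    have h1 : ∀ x y, β (g.val *ᵥ x) (g.val *ᵥ y) = β x y := by
      have h3 : β.compl₁₂ (Matrix.toLin' g.val) (Matrix.toLin' g.val) = β := by
        refine (Pi.basisFun F (Fin t → Fin k)).ext fun a => (Pi.basisFun F (Fin t → Fin k)).ext fun b => ?_
        rw [LinearMap.compl₁₂_apply, Matrix.toLin'_apply, Matrix.toLin'_apply, Pi.basisFun_apply, Pi.basisFun_apply,
          single_eq_tp, single_eq_tp, hg]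
      intro x y
      have h4 := LinearMap.congr_fun (LinearMap.congr_fun h3 x) y
      rwa [LinearMap.compl₁₂_apply, Matrix.toLin'_apply, Matrix.toLin'_apply] at h4
    have h3 : conjEquiv e P g ∈ spGL m F := by
      rw [mem_spGL_iff]
      intro u v
      obtain ⟨x, rfl⟩ := psi_surj e P u
      obtain ⟨y, rfl⟩ := psi_surj e P v
      have h4 := h1 x y
      rw [hβf, hβf] at h4
      rw [psi_apply, psi_apply, mulVec_conjEquiv, mulVec_conjEquiv]
      exact h4
    rw [← toGL_range] at h3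
    exact h3
  have hβG : ∀ (g : Matrix.symplecticGroup (Fin m) F) x y,
      β ((Phi e P g : Module.End F ((Fin t → Fin k) → F)) x) ((Phi e P g : Module.End F ((Fin t → Fin k) → F)) y)
        = β x y := by
    intro g x y
    rw [hβf, hβf, psi_Phi, psi_Phi, form_smul]
  have hPhi : ∀ (h : Matrix.symplecticGroup (Fin m) F) (g : GL (Fin t → Fin k) F), toGL m F h = conjEquiv e P g →
      Phi e P h = toEnd g := by
    intro h g hg
    rw [Phi_apply, hg, MulEquiv.symm_apply_apply]
  have hKmem : ∀ (h : Matrix.symplecticGroup (Fin m) F) (g : GL (Fin t → Fin k) F), toGL m F h = conjEquiv e P g →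
      g ∈ tensorWreathStandard k t F → toGL m F h ∈ tensorWreathSubgroup k t e P := by
    intro h g hg hgt
    rw [hg, tensorWreathSubgroup_eq]
    exact ⟨g, hgt, rfl⟩
  -- pure vectors
  have hpure : ∀ x : (Fin t → Fin k) → F, (∀ u : Fin t → (Fin k → F), (∀ i, u i ≠ 0) → β x (tp u) = 0) → x = 0 := by
    intro x hx
    have h1 : ∀ y, β x y = 0 := by
      have h3 : β x = 0 := by
        refine (Pi.basisFun F (Fin t → Fin k)).ext fun b => ?_
        rw [Pi.basisFun_apply, single_eq_tp, LinearMap.zero_apply]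
        refine hx _ fun i => ?_
        intro h
        have := congrFun h (b i)
        rw [Pi.single_eq_same] at this
        exact one_ne_zero this
      intro y
      rw [h3, LinearMap.zero_apply]
    by_contra h0
    have h3 : psi e P x ≠ 0 := by
      intro h
      exact h0 (psi_inj e P (by rw [h, map_zero]))
    obtain ⟨v, hv, -⟩ := exists_both_ne_zero h3 h3
    obtain ⟨y, rfl⟩ := psi_surj e P v
    exact hv (h1 y)
  rw [show tensorWreathSubgroup k t e P ⊓ spGL m F = tensorWreathSubgroup k t e P ⊓ spGL m F from rfl]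
  apply isMaximalIn_of
  · -- properness
    obtain ⟨w0, hw0⟩ : ∃ w0 : Fin k → F, w0 ≠ 0 := ⟨_, e0⟩
    obtain ⟨f, hf⟩ := exists_one hn hw0
    have hfw : ω f w0 = -1 := by rw [skew, hf]
    let z : (Fin t → Fin k) → F := tp fun _ => w0
    refine ⟨transv (psi e P z) 1, fun hmem => ?_⟩
    rw [tensorWreathSubgroup_eq] at hmem
    obtain ⟨g, hgt, hg⟩ := hmem
    obtain ⟨gs, σ, hmon⟩ := exists_isMonomialOn hgt
    have h1 : psi e P (g.val *ᵥ tp fun _ => f) = psi e P ((tp fun _ => f) + (β (tp fun _ => f) z) • z) := by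
      rw [psi_apply, ← mulVec_conjEquiv]
      have h3 : conjEquiv e P g = toGL m F (transv (psi e P z) 1) := hg
      rw [h3, toGL_mulVec, transv_smul, map_add, map_smul, one_mul]
      rfl
    have h3 := psi_inj e P h1
    rw [hmon] at h3
    -- contractions
    let ys : Fin t → (Fin k → F) := fun i => (gs i).val *ᵥ f
    have h4 : tp ys = (tp fun _ => f) + (β (tp fun _ => f) z) • z := h3
    have hβz : β (tp fun _ => f) z = c0 * (-1) ^ t := by
      show β (tp fun _ => f) (tp fun _ => w0) = _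
      rw [hβ]
      simp only [hfw, Finset.prod_const, Finset.card_univ, Fintype.card_fin]
    have hκ : β (tp fun _ => f) z ≠ 0 := by
      rw [hβz]
      exact mul_ne_zero hc0 (pow_ne_zero _ (neg_ne_zero.2 one_ne_zero))
    have q1 : ∀ vs : Fin t → (Fin k → F), c0 * ∏ i, ω (vs i) (ys i)
        = c0 * ∏ i, ω (vs i) f + β (tp fun _ => f) z * (c0 * ∏ i, ω (vs i) w0) := by
      intro vs
      have e1 : β (tp vs) z = c0 * ∏ i, ω (vs i) w0 := hβ vs fun _ => w0
      have e2 : β (tp vs) (tp fun _ => f) = c0 * ∏ i, ω (vs i) f := hβ vs fun _ => f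
      rw [← hβ vs ys, h4, map_add, map_smul, smul_eq_mul, e1, e2]
    have r1 : ∏ i, ω w0 (ys i) ≠ 0 := by
      have := q1 fun _ => w0
      simp only [hf, hω, Finset.prod_const, Finset.card_univ, Fintype.card_fin, one_pow] at this
      rw [zero_pow (by omega), mul_zero, mul_zero, add_zero] at this
      intro h0
      rw [h0, mul_zero, mul_one] at this
      exact hc0 this.symm
    have r2 : ∏ i, ω f (ys i) ≠ 0 := by
      have := q1 fun _ => f
      simp only [hfw, hω, Finset.prod_const, Finset.card_univ, Fintype.card_fin] at this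
      rw [zero_pow (by omega), mul_zero, zero_add] at this
      intro h0
      rw [h0, mul_zero] at this
      exact (mul_ne_zero hκ (mul_ne_zero hc0 (pow_ne_zero _ (neg_ne_zero.2 one_ne_zero)))) this.symm
    let i0 : Fin t := ⟨0, by omega⟩
    let i1 : Fin t := ⟨1, by omega⟩
    have h01 : i1 ≠ i0 := by
      intro h
      have := congrArg Fin.val h
      simp [i0, i1] at this
    have r3 := q1 (Function.update (fun _ => w0) i0 f)
    rw [Finset.prod_eq_zero (Finset.mem_univ i0) (f := fun i => ω (Function.update (fun _ => w0) i0 f i) f)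
        (by rw [Function.update_self]; exact hω f),
      Finset.prod_eq_zero (Finset.mem_univ i1) (f := fun i => ω (Function.update (fun _ => w0) i0 f i) w0)
        (by rw [Function.update_of_ne h01]; exact hω w0), mul_zero, mul_zero, add_zero] at r3
    have r4 : ∏ i, ω (Function.update (fun _ => w0) i0 f i) (ys i) ≠ 0 := by
      refine Finset.prod_ne_zero_iff.2 fun i _ => ?_
      by_cases hi : i = i0
      · rw [hi, Function.update_self]
        exact Finset.prod_ne_zero_iff.1 r2 i0 (Finset.mem_univ i0)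
      · rw [Function.update_of_ne hi]
        exact Finset.prod_ne_zero_iff.1 r1 i (Finset.mem_univ i)
    exact mul_ne_zero hc0 r4 r3
  · -- maximality
    rintro M hKM ⟨g₀, hg₀, hg₀K⟩
    let N : Subgroup (Module.End F ((Fin t → Fin k) → F))ˣ := M.map (Phi e P)
    have hNfin : Finite N := by
      have h1 : Finite M := inferInstance
      exact Finite.of_surjective (fun x : M => (⟨Phi e P x, Subgroup.mem_map_of_mem _ x.2⟩ : N)) (by
        rintro ⟨_, x, hx, rfl⟩
        exact ⟨⟨x, hx⟩, rfl⟩)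
    have hNmem : ∀ (g : GL (Fin t → Fin k) F), g ∈ tensorWreathStandard k t F →
        (∀ xs ys, β (g.val *ᵥ tp xs) (g.val *ᵥ tp ys) = β (tp xs) (tp ys)) → toEnd g ∈ N := by
      intro g hgt hg
      obtain ⟨h, hh⟩ := hmemG g hg
      exact ⟨h, hKM (hKmem h g hh hgt), hPhi h g hh⟩
    have hLev : LevelHyp ω N := by
      constructor
      · intro g g' h1 h3 h4
        let gs : Fin t → GL (Fin k) F := fun i => ⟨g i, g' i, h1 i, h3 i⟩
        refine ⟨toEnd (pmGL gs), hNmem _ (pmGL_mem gs) ?_, rfl, ?_⟩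
        · intro xs ys
          rw [coe_pmGL, pm_mulVec, pm_mulVec, hβ, hβ]
          congr 1
          refine Finset.prod_congr rfl fun i _ => ?_
          exact h4 i _ _
        · rw [← map_inv]
          rfl
      · intro σ
        obtain ⟨g, hgt, hg⟩ := exists_perm_mem (F := F) (k := k) σ
        refine ⟨toEnd g, hNmem g hgt ?_, fun A => ?_⟩
        · intro xs ys
          rw [hg, hg, hβ, hβ]
          congr 1
          exact Equiv.prod_comp σ fun i => ω (xs i) (ys i)
        · refine end_ext_tp fun xs => ?_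
          rw [Module.End.mul_apply, Module.End.mul_apply, PM_tp, coe_toEnd, Matrix.toLin'_apply, Matrix.toLin'_apply, hg,
            hg, PM_tp]
    have hroot : ∀ j v (l : F), In N (l • sl j (eM ω v v)) := by
      intro j v l
      obtain ⟨h1, h3, h4⟩ := isom_tv hω v l
      obtain ⟨u, hu, hu1, -⟩ := hLev.pure_mem (Function.update (fun _ => 1) j (1 + l • eM ω v v))
        (Function.update (fun _ => 1) j (1 - l • eM ω v v))
        (by
          intro i
          by_cases hi : i = j
          · subst hi; rw [Function.update_self, Function.update_self, h1]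
          · rw [Function.update_of_ne hi, Function.update_of_ne hi, mul_one])
        (by
          intro i
          by_cases hi : i = j
          · subst hi; rw [Function.update_self, Function.update_self, h3]
          · rw [Function.update_of_ne hi, Function.update_of_ne hi, mul_one])
        (by
          intro i x y
          by_cases hi : i = j
          · subst hi; rw [Function.update_self, h4]
          · rw [Function.update_of_ne hi, Matrix.one_mulVec, Matrix.one_mulVec])
      refine ⟨u, hu, ?_⟩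
      rw [hu1]
      show sl j (1 + l • eM ω v v) = _
      rw [sl_add, sl_one, sl_smul]
    have hiso : ∀ g ∈ N, ∀ x y, β ((g : Module.End F ((Fin t → Fin k) → F)) x)
        ((g : Module.End F ((Fin t → Fin k) → F)) y) = β x y := by
      rintro _ ⟨g, -, rfl⟩ x y
      exact hβG g x y
    rcases good_or_level hp hLev hω hn hcom hroot ht β hc0 hβ hiso with hgood | ⟨c', hc', hlev⟩
    · -- good slots
      exfalso
      apply hg₀K
      have hk : k = 2 ∧ 3 < Fintype.card F ∨ 3 ≤ k := by
        by_cases h : k = 2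
        · left
          refine ⟨h, ?_⟩
          have h1 : Fintype.card F ≠ 3 := fun h' => hex ⟨h', h⟩
          have h3 := Fintype.one_lt_card (α := F)
          obtain ⟨n, hn'⟩ := hodd
          omega
        · right; omega
      let g : GL (Fin t → Fin k) F := (conjEquiv e P).symm (toGL m F g₀)
      have hg : toGL m F g₀ = conjEquiv e P g := ((conjEquiv e P).apply_symm_apply _).symm
      refine hKmem g₀ g hg (recog_mem hω hn hcom (by omega) g fun i w hw => ?_)
      obtain ⟨j, u, l, h⟩ := roots_of_good hp hLev hω hn hcom hroot hk hgood (g := Phi e P g₀) ⟨g₀, hg₀, rfl⟩ i hw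
      refine ⟨j, u, l, ?_⟩
      rw [hPhi g₀ g hg, ← map_inv, coe_toEnd, coe_toEnd, sl_eq, sl_eq, Module.End.mul_eq_comp, Module.End.mul_eq_comp,
        ← Matrix.toLin'_mul, ← Matrix.toLin'_mul, ← map_smul] at h
      exact Matrix.toLin'.injective h
    · -- transvections
      have htr : ∀ u : Fin t → (Fin k → F), (∀ i, u i ≠ 0) → transv (psi e P (tp u)) (-(c' * c0⁻¹)) ∈ M := by
        intro u hu
        obtain ⟨_, ⟨g, hg, rfl⟩, hgx⟩ := hasD_univ_apply β hc0 hβ hlev hu
        have h1 : g = transv (psi e P (tp u)) (-(c' * c0⁻¹)) := by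
          apply ext_smul
          intro v
          obtain ⟨x, rfl⟩ := psi_surj e P v
          rw [← psi_Phi, hgx, transv_smul, map_add, map_smul, hβf, sympForm_swap (psi e P x)]
          congr 2
          ring
        rw [← h1]; exact hg
      have hfull : ∀ u : Fin t → (Fin k → F), (∀ i, u i ≠ 0) → Full M (psi e P (tp u)) := by
        intro u hu c
        have hsq : ∀ a : F, transv (psi e P (tp u)) (a ^ 2 * -(c' * c0⁻¹)) ∈ M := by
          intro a
          by_cases ha : a = 0
          · rw [ha, zero_pow two_ne_zero, zero_mul, transv_zero]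
            exact M.one_mem
          let i0 : Fin t := ⟨0, by omega⟩
          have h1 : tp (Function.update u i0 (a • u i0)) = a • tp u := by
            rw [tp_update_smul, Function.update_eq_self]
          have h3 := htr (Function.update u i0 (a • u i0)) fun i => by
            by_cases hi : i = i0
            · rw [hi, Function.update_self]; exact smul_ne_zero ha (hu _)
            · rw [Function.update_of_ne hi]; exact hu i
          rwa [h1, map_smul, transv_smul_vec] at h3
        have hκ : -(c' * c0⁻¹) ≠ 0 := neg_ne_zero.2 (mul_ne_zero hc' (inv_ne_zero hc0))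
        obtain ⟨a, b, hab⟩ : ∃ a b : F, a ^ 2 + b ^ 2 = c * (-(c' * c0⁻¹))⁻¹ := by
          have hq : Fintype.card F % 2 = 1 := Nat.odd_iff.1 hodd
          obtain ⟨a, b, hab⟩ := FiniteField.exists_root_sum_quadratic (R := F) (f := Polynomial.X ^ 2)
            (g := Polynomial.X ^ 2 - Polynomial.C (c * (-(c' * c0⁻¹))⁻¹))
            (Polynomial.degree_X_pow 2) (by rw [Polynomial.degree_X_pow_sub_C (by norm_num)]; rfl) hq
          refine ⟨a, b, ?_⟩
          rw [Polynomial.eval_pow, Polynomial.eval_X, Polynomial.eval_sub, Polynomial.eval_pow, Polynomial.eval_X,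
            Polynomial.eval_C] at hab
          linear_combination hab
        have h5 := M.mul_mem (hsq a) (hsq b)
        rw [transv_mul, ← add_mul, hab, mul_assoc, inv_mul_cancel₀ hκ, mul_one] at h5
        exact h5
      apply eq_top_of_full
      refine full_of_connected ⟨1, one_ne_zero, fun h => h2 ?_⟩
        {v | ∃ u : Fin t → (Fin k → F), (∀ i, u i ≠ 0) ∧ v = psi e P (tp u)} ?_ ?_ ?_
      · have h1 : (1 : F) + 1 = 0 := by
          nth_rewrite 1 [h]
          rw [neg_add_cancel]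
        rw [← one_add_one_eq_two, h1]
      · rintro _ ⟨u, hu, rfl⟩
        exact hfull u hu
      · intro v hv
        obtain ⟨x, rfl⟩ := psi_surj e P v
        by_contra hcon
        push Not at hcon
        apply hv
        rw [hpure x fun u hu => hcon _ ⟨u, hu, rfl⟩, map_zero]
      · intro W hW1 hW2
        by_contra hcon
        push Not at hcon
        have hmem : ∀ u : Fin t → (Fin k → F), (∀ i, u i ≠ 0) → psi e P (tp u) ∉ W →
            ∀ w ∈ W, sympForm m F w (psi e P (tp u)) = 0 := fun u hu h => hcon _ ⟨u, hu, rfl⟩ h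
        -- if one pure vector is in `W` then all are
        have hone : ∀ u : Fin t → (Fin k → F), (∀ i, u i ≠ 0) → psi e P (tp u) ∈ W →
            ∀ u' : Fin t → (Fin k → F), (∀ i, u' i ≠ 0) → psi e P (tp u') ∈ W := by
          intro u hu huW u' hu'
          have hx : ∀ i, ∃ x, ω (u i) x ≠ 0 ∧ ω (u' i) x ≠ 0 := fun i => hcom _ _ (hu i) (hu' i)
          choose x hx1 hx2 using hx
          have hx0 : ∀ i, x i ≠ 0 := by
            intro i h0
            apply hx1 i
            rw [h0, map_zero]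
          have hxW : psi e P (tp x) ∈ W := by
            by_contra h
            have h1 := hmem x hx0 h _ huW
            have h3 : β (tp u) (tp x) = 0 := h1
            rw [hβ] at h3
            exact mul_ne_zero hc0 (Finset.prod_ne_zero_iff.2 fun i _ => hx1 i) h3
          by_contra h
          have h1 := hmem u' hu' h _ hxW
          have h3 : β (tp x) (tp u') = 0 := h1
          rw [hβ] at h3
          refine mul_ne_zero hc0 (Finset.prod_ne_zero_iff.2 fun i _ => ?_) h3
          rw [skew]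
          exact neg_ne_zero.2 (hx2 i)
        by_cases hsome : ∃ u : Fin t → (Fin k → F), (∀ i, u i ≠ 0) ∧ psi e P (tp u) ∈ W
        · obtain ⟨u, hu, huW⟩ := hsome
          apply hW2
          rw [eq_top_iff]
          intro v _
          obtain ⟨x, rfl⟩ := psi_surj e P v
          rw [pi_eq_sum_univ' x, map_sum]
          refine Submodule.sum_mem _ fun b _ => ?_
          rw [map_smul, single_eq_tp]
          refine Submodule.smul_mem _ _ (hone u hu huW _ fun i => ?_)
          intro h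
          have := congrFun h (b i)
          rw [Pi.single_eq_same] at this
          exact one_ne_zero this
        · push Not at hsome
          apply hW1
          rw [Submodule.eq_bot_iff]
          intro v hv
          obtain ⟨x, rfl⟩ := psi_surj e P v
          rw [hpure x fun u hu => hmem u hu (hsome u hu) _ hv, map_zero]

end Cfsg.Agent.H874
end
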